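import Cfsg.Agent.Screen.TwoGen.Unitary.Basic
import Cfsg.Agent.KnownA.UnitaryBound

/-!
# Two generators of `SU_n(q)` for `q ≥ 3` and `n ≥ 4`

One is a transvection times a torus element on an orthogonal pair, the other is the monomial cycle. The
torus element has order prime to `q`, so both factors are in the group; conjugates of the torus element
grow the transvection to its whole root group, and from a few of those all isotropic points follow, one
basis vector at a time.
-/

set_option autoImplicit false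
set_option linter.unusedSimpArgs false
set_option linter.unusedSectionVars false

namespace Cfsg.Agent.Screen.TwoGen.Unitary

open Matrix Cfsg.Agent.KnownA Cfsg.Agent.Forms.SUOdd
open Cfsg.Agent.Forms (frobQ)

variable {F : Type*} [Field F] [Fintype F] {n q : ℕ} (hF : Fintype.card F = q ^ 2)
include hF

local notation "B" => ub hF
local notation "σ" => frobQ hF

/-- A non-zero element of trace zero. -/
theorem exists_delta : ∃ δ : F, δ ≠ 0 ∧ δ + σ δ = 0 := by
  by_contra hcon
  push Not at hcon
  refine Forms.frobQ_ne_id hF (RingHom.ext fun x => ?_)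
  have h : kap hF x = 0 := by
    by_contra h
    exact hcon _ h (kap_trace hF x)
  rw [kap, sub_eq_zero] at h
  exact h.symm

/-- The generator of the units of the fixed field. -/
theorem exists_gamma (hq : 3 ≤ q) : ∃ γ : F, γ ≠ 0 ∧ γ ≠ 1 ∧ σ γ = γ ∧ γ ^ (q - 1) = 1 ∧
    ∀ r : F, r ≠ 0 → σ r = r → ∃ k : ℕ, γ ^ k = r := by
  classical
  let K : Subgroup Fˣ :=
    { carrier := {x | σ (x : F) = x}
      mul_mem' := fun {x y} hx hy => by
        simp only [Set.mem_setOf_eq, Units.val_mul, map_mul] at *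
        rw [hx, hy]
      one_mem' := by simp
      inv_mem' := fun {x} hx => by
        simp only [Set.mem_setOf_eq, Units.val_inv_eq_inv_val, map_inv₀] at *
        rw [hx] }
  obtain ⟨g, hg⟩ := IsCyclic.exists_generator (α := K)
  have hgen : ∀ r : F, r ≠ 0 → σ r = r → ∃ k : ℕ, ((g : Fˣ) : F) ^ k = r := by
    intro r hr hσ
    obtain ⟨k, hk⟩ := (isOfFinOrder_of_finite g).mem_powers_iff_mem_zpowers.2
      (hg ⟨Units.mk0 r hr, hσ⟩)
    refine ⟨k, ?_⟩
    simpa using congrArg (fun x : K => ((x : Fˣ) : F)) hk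
  have hfix : σ ((g : Fˣ) : F) = ((g : Fˣ) : F) := g.2
  refine ⟨((g : Fˣ) : F), Units.ne_zero _, fun h1 => ?_, hfix, ?_, hgen⟩
  · have h2 : Nat.card {r : F // r ≠ 0 ∧ σ r = r} ≤ 1 := by
      rw [Finite.card_le_one_iff_subsingleton]
      refine ⟨fun x y => Subtype.ext ?_⟩
      obtain ⟨k, hk⟩ := hgen x.1 x.2.1 x.2.2
      obtain ⟨l, hl⟩ := hgen y.1 y.2.1 y.2.2
      rw [← hk, ← hl, h1, one_pow, one_pow]
    have := card_fixed_ge hF
    omega
  · apply mul_left_cancel₀ (Units.ne_zero (g : Fˣ))
    rw [mul_one, ← pow_succ', Nat.sub_add_cancel (by omega), ← Forms.frobQ_apply hF, hfix]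

omit [Fintype F] hF in
/-- A subring containing the square of a generator contains the whole field. -/
theorem gen_sq {σ' : F →+* F} {γ : F} (hσ : σ' γ = γ) (hγ : ∀ r : F, r ≠ 0 → σ' r = r → ∃ k : ℕ, γ ^ k = r)
    (hsurj : ∀ r : F, (2 : F) = 0 → σ' r = r → ∃ s, σ' s = s ∧ s ^ 2 = r)
    (S : Subring F) (hS : γ * σ' γ ∈ S) (r : F) (hr : σ' r = r) : r ∈ S := by
  have hsq : ∀ s : F, σ' s = s → s ^ 2 ∈ S := by
    intro s hs
    rcases eq_or_ne s 0 with rfl | h0
    · simp [S.zero_mem]
    obtain ⟨k, rfl⟩ := hγ s h0 hs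
    have := S.pow_mem hS k
    rw [hσ] at this
    rwa [show (γ ^ k) ^ 2 = (γ * γ) ^ k by ring]
  by_cases h2 : (2 : F) = 0
  · obtain ⟨s, hs, rfl⟩ := hsurj r h2 hr
    exact hsq s hs
  · have hs : σ' (r / 2) = r / 2 := by rw [map_div₀, hr, map_ofNat]
    have e : r = (r / 2 + 1) ^ 2 - (r / 2) ^ 2 - 1 := by field_simp; ring
    rw [e]
    exact S.sub_mem (S.sub_mem (hsq _ (by rw [map_add, map_one, hs])) (hsq _ hs)) S.one_mem

theorem sqrt_fixed (r : F) (h2 : (2 : F) = 0) (hr : σ r = r) : ∃ s, σ s = s ∧ s ^ 2 = r := by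
  haveI : CharP F 2 := CharTwo.of_one_ne_zero_of_two_eq_zero one_ne_zero h2
  obtain ⟨s, hs⟩ := (frobeniusEquiv F 2).surjective r
  have e : s ^ 2 = r := by simpa [frobeniusEquiv_apply, frobenius_def] using hs
  refine ⟨s, (frobeniusEquiv F 2).injective ?_, e⟩
  simp only [frobeniusEquiv_apply, frobenius_def]
  rw [← map_pow, e, hr]

/-- The torus element on an orthogonal pair. -/
theorem exists_tor (e f : Fin n → F) (he : B e e = 0) (hf : B f f = 0) (hef : B e f = 1)
    (γ : F) (hγ : γ ≠ 0) (hγσ : σ γ = γ) :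
    ∃ g : Cfsg.SU n F q, ∀ x,
      act g x = x + ((γ - 1) * B f x) • e + ((γ⁻¹ - 1) * B e x) • f := by
  have hfe : B f e = 1 := by rw [← ub_symm hF, hef, map_one]
  obtain ⟨g, hg⟩ := exists_su_of_linearMap hF
    (LinearMap.id + ((γ - 1) • ubL hF f).smulRight e + ((γ⁻¹ - 1) • ubL hF e).smulRight f)
    (fun x y => by
      simp only [LinearMap.add_apply, LinearMap.id_apply, LinearMap.smulRight_apply,
        LinearMap.smul_apply, ubL_apply, smul_eq_mul, ub_add_left hF, ub_add_right hF, ub_smul_left hF,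
        ub_smul_right hF, map_sub, map_mul, map_inv₀, map_one, hγσ, he, hf, hef, hfe,
        ub_symm hF e x, ub_symm hF f x]
      field_simp
      ring)
    (by
      simp only [det_one_add_two, LinearMap.smul_apply, ubL_apply, smul_eq_mul, he, hf, hef, hfe]
      field_simp
      ring)
  exact ⟨g, fun x => by rw [hg]; rfl⟩

variable {H : Subgroup (Cfsg.SU n F q)}

/-- Full root groups at two non-orthogonal isotropic points give those at the isotropic points between. -/
theorem plane {x y : Fin n → F} (hx : B x x = 0) (hy : B y y = 0) (hxy : B x y ≠ 0)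
    (hfx : Full hF H x) (hfy : Full hF H y) (a b : F) (hz : B (a • x + b • y) (a • x + b • y) = 0) :
    Full hF H (a • x + b • y) := by
  rcases eq_or_ne a 0 with rfl | ha
  · rw [zero_smul, zero_add]; exact hfy.smul hF hy b
  set s := b / a with hs
  have e : a • x + b • y = a • (x + s • y) := by
    rw [smul_add, smul_smul, hs, mul_div_cancel₀ _ ha]
  have hz' : B (x + s • y) (x + s • y) = 0 := by
    rw [e, ub_smul_left hF, ub_smul_right hF] at hz
    rcases mul_eq_zero.1 hz with h | h
    · exact absurd ((map_eq_zero _).1 h) ha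
    · exact (mul_eq_zero.1 h).resolve_left ha
  have hσxy : σ (B x y) ≠ 0 := fun h => hxy ((map_eq_zero _).1 h)
  have htr : s * B x y + σ (s * B x y) = 0 := by
    rw [map_mul, ub_symm hF]
    simp only [ub_add_left hF, ub_add_right hF, ub_smul_left hF, ub_smul_right hF, hx, hy] at hz'
    linear_combination hz'
  have hm : s / σ (B x y) + σ (s / σ (B x y)) = 0 := by
    rw [map_mul] at htr
    rw [map_div₀, sig_sig hF]
    field_simp
    linear_combination htr
  have hmem := hfy _ hm
  have hact : act (root hF y 0 (s / σ (B x y))) x = x + s • y := by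
    rw [act_tv hF hy hm, ← ub_symm hF x y, div_mul_cancel₀ _ hσxy]
  rw [e]
  have := hfx.conj hF hx hmem
  rw [hact] at this
  exact this.smul hF hz' a

/-- Adding one anisotropic direction to a plane. -/
theorem space3 {e f z : Fin n → F} (he : B e e = 0) (hf : B f f = 0) (hef : B e f = 1) (hez : B e z = 0)
    (hfz : B f z = 0) (hzz : B z z = 1) {δ : F} (hδ : δ ≠ 0) (hδT : δ + σ δ = 0)
    (hfe : Full hF H e) (hff : Full hF H f) {A C S : F} (hS : S ≠ 0)
    (hv : B (A • e + C • f + S • z) (A • e + C • f + S • z) = 0)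
    (hfv : Full hF H (A • e + C • f + S • z)) (A' C' S' : F)
    (hv' : B (A' • e + C' • f + S' • z) (A' • e + C' • f + S' • z) = 0) :
    Full hF H (A' • e + C' • f + S' • z) := by
  have hfe1 : B f e = 1 := by rw [← ub_symm hF, hef, map_one]
  have hze := ub_eq_zero_symm hF hez
  have hzf := ub_eq_zero_symm hF hfz
  rcases eq_or_ne S' 0 with rfl | hS'
  · rw [zero_smul, add_zero] at hv' ⊢
    exact plane hF he hf (by rw [hef]; exact one_ne_zero) hfe hff A' C' hv'
  -- the vectors with last coordinate `1`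
  have hiso : ∀ a c : F, B (a • e + c • f + z) (a • e + c • f + z) = 0 ↔ σ a * c + σ c * a + 1 = 0 := by
    intro a c
    simp only [ub_add_left hF, ub_add_right hF, ub_smul_left hF, ub_smul_right hF, he, hf, hef, hfe1, hez,
      hfz, hze, hzf, hzz]
    constructor <;> intro h <;> linear_combination h
  have hme : ∀ a c m : F, m + σ m = 0 →
      act (root hF e 0 m) (a • e + c • f + z) = (a + m * c) • e + c • f + z := by
    intro a c m hm
    rw [act_tv hF he hm, ub_add_right hF, ub_add_right hF, ub_smul_right hF, ub_smul_right hF, he, hef, hez]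
    match_scalars <;> ring
  have hmf : ∀ a c m : F, m + σ m = 0 →
      act (root hF f 0 m) (a • e + c • f + z) = a • e + (c + m * a) • f + z := by
    intro a c m hm
    rw [act_tv hF hf hm, ub_add_right hF, ub_add_right hF, ub_smul_right hF, ub_smul_right hF, hf, hfe1, hfz]
    match_scalars <;> ring
  have hdiv : ∀ x : F, x + σ x = 0 ↔ σ (x / δ) = x / δ := by
    intro x
    have hσδ : σ δ = -δ := by linear_combination hδT
    rw [map_div₀, hσδ]
    constructor
    · intro h; field_simp; linear_combination -h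
    · intro h; field_simp at h; linear_combination -h
  -- first coordinate `1`
  have hone : ∀ a c : F, σ a * c + σ c * a + 1 = 0 →
      ∃ g ∈ H, ∃ c₁ : F, c₁ + σ c₁ + 1 = 0 ∧ act g (a • e + c • f + z) = (1 : F) • e + c₁ • f + z := by
    intro a c hac
    have ha : a ≠ 0 := fun h => one_ne_zero (α := F) (by rw [h, map_zero] at hac; linear_combination hac)
    have hstep : ∀ a c : F, σ a * c + σ c * a + 1 = 0 → σ a ≠ a →
        ∃ g ∈ H, ∃ c₁ : F, c₁ + σ c₁ + 1 = 0 ∧
          act g (a • e + c • f + z) = (1 : F) • e + c₁ • f + z := by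
      intro a c hac hσa
      have h1a : 1 - a ≠ 0 := fun h => hσa (by rw [← sub_eq_zero.1 h, map_one])
      have h1σa : 1 - σ a ≠ 0 := fun h => h1a (by
        have := congrArg σ h; rw [map_sub, map_one, sig_sig hF, map_zero] at this; exact this)
      set T := δ * a / (1 - a) + σ (δ * a / (1 - a)) with hTdef
      have hT : T ≠ 0 := by
        intro h
        have h' := (hdiv _).1 h
        rw [show δ * a / (1 - a) / δ = a / (1 - a) by field_simp, map_div₀, map_sub, map_one,
          div_eq_div_iff h1σa h1a] at h'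
        exact hσa (by linear_combination h')
      set s := -(c / (1 - a) + σ (c / (1 - a))) / T with hsdef
      have hsσ : σ s = s := by
        rw [hsdef, hTdef, map_div₀, map_neg, map_add, map_add, sig_sig hF, sig_sig hF]
        ring
      have hm : s * δ + σ (s * δ) = 0 := by rw [map_mul, hsσ]; linear_combination s * hδT
      set c' := c + s * δ * a with hc'
      have hg := hmf a c _ hm
      have hacT : σ a * c' + σ c' * a + 1 = 0 := by
        rw [hc', map_add, map_mul, map_mul, hsσ]
        linear_combination hac + (s * a * σ a) * hδT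
      have hc'0 : c' ≠ 0 := fun h => one_ne_zero (α := F) (by rw [h, map_zero] at hacT; linear_combination hacT)
      have hσc'0 : σ c' ≠ 0 := fun h => hc'0 ((map_eq_zero _).1 h)
      have hm' : (1 - a) / c' + σ ((1 - a) / c') = 0 := by
        have h0 : c' / (1 - a) + σ (c' / (1 - a)) = 0 := by
          rw [hc', add_div, map_add, show s * δ * a / (1 - a) = s * (δ * a / (1 - a)) by ring, map_mul, hsσ]
          have : s * T = -(c / (1 - a) + σ (c / (1 - a))) := by rw [hsdef, div_mul_cancel₀ _ hT]
          rw [hTdef] at this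
          linear_combination this
        rw [map_div₀, map_sub, map_one] at h0 ⊢
        field_simp at h0 ⊢
        linear_combination h0
      have hg' := hme a c' _ hm'
      rw [div_mul_cancel₀ _ hc'0, add_sub_cancel] at hg'
      refine ⟨root hF e 0 ((1 - a) / c') * root hF f 0 (s * δ), H.mul_mem (hfe _ hm') (hff _ hm), c', ?_, ?_⟩
      · have h2 := (hiso 1 c').1 (by rw [← hg', act_ub hF]; exact (hiso a c').2 hacT)
        rw [map_one, one_mul, mul_one] at h2
        exact h2
      · rw [act_mul_apply, hg, hg']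
    by_cases hσa : σ a = a
    · have hδc : σ (a + δ * c) ≠ a + δ * c := by
        intro h
        rw [map_add, hσa, map_mul, add_right_inj] at h
        have hσδ : σ δ = -δ := by linear_combination hδT
        rw [hσδ, neg_mul, neg_eq_iff_add_eq_zero, ← mul_add, mul_eq_zero] at h
        have h' := h.resolve_left hδ
        rw [hσa] at hac
        exact one_ne_zero (α := F) (by linear_combination hac - a * h')
      have hg := hme a c δ hδT
      obtain ⟨g, hgH, c₁, hc₁, hgv⟩ := hstep (a + δ * c) c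
        ((hiso _ _).1 (by rw [← hg, act_ub hF]; exact (hiso a c).2 hac)) hδc
      exact ⟨g * root hF e 0 δ, H.mul_mem hgH (hfe _ hδT), c₁, hc₁, by rw [act_mul_apply, hg, hgv]⟩
    · exact hstep a c hac hσa
  have hscale : ∀ a c s : F, s ≠ 0 →
      a • e + c • f + s • z = s • ((a / s) • e + (c / s) • f + z) := by
    intro a c s hs
    simp only [smul_add, smul_smul, mul_div_cancel₀ _ hs]
  have hsolve : ∀ a c s : F, s ≠ 0 → B (a • e + c • f + s • z) (a • e + c • f + s • z) = 0 →
      σ (a / s) * (c / s) + σ (c / s) * (a / s) + 1 = 0 := by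
    intro a c s hs h
    apply (hiso _ _).1
    rw [hscale a c s hs, ub_smul_left hF, ub_smul_right hF] at h
    rcases mul_eq_zero.1 h with h | h
    · exact absurd ((map_eq_zero _).1 h) hs
    · exact (mul_eq_zero.1 h).resolve_left hs
  have hp := hsolve A C S hS hv
  have hp' := hsolve A' C' S' hS' hv'
  have hf1 : Full hF H ((A / S) • e + (C / S) • f + z) := by
    have := hfv.smul hF hv S⁻¹
    rwa [hscale A C S hS, smul_smul, inv_mul_cancel₀ hS, one_smul] at this
  obtain ⟨g, hgH, c₁, hc₁, hg⟩ := hone _ _ hp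
  obtain ⟨g', hg'H, c₂, hc₂, hg'⟩ := hone _ _ hp'
  have hm : c₂ - c₁ + σ (c₂ - c₁) = 0 := by rw [map_sub]; linear_combination hc₂ - hc₁
  have hmid : act (root hF f 0 (c₂ - c₁)) ((1 : F) • e + c₁ • f + z) = (1 : F) • e + c₂ • f + z := by
    rw [hmf _ _ _ hm, mul_one, add_sub_cancel]
  have := hf1.conj hF ((hiso _ _).2 hp) (g := g'⁻¹ * (root hF f 0 (c₂ - c₁) * g))
    (H.mul_mem (H.inv_mem hg'H) (H.mul_mem (hff _ hm) hgH))
  rw [act_mul_apply, act_mul_apply, hg, hmid, ← hg', ← act_mul_apply, inv_mul_cancel, act_one,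
    Module.End.one_apply] at this
  rw [hscale A' C' S' hS']
  exact this.smul hF ((hiso _ _).2 hp') S'

/-- All isotropic vectors supported below `k` have full root groups. -/
def Upto (H : Subgroup (Cfsg.SU n F q)) (k : ℕ) : Prop :=
  ∀ x : Fin n → F, (∀ i : Fin n, k ≤ i.val → x i = 0) → B x x = 0 → Full hF H x

/-- Some element of `H` moves `v` to `w` and fixes `p`. -/
def Moves (H : Subgroup (Cfsg.SU n F q)) (p v w : Fin n → F) : Prop :=
  ∃ g ∈ H, act g v = w ∧ act g p = p

omit hF in
theorem Moves.trans {p v w w' : Fin n → F} (h : Moves H p v w) (h' : Moves H p w w') : Moves H p v w' := by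
  obtain ⟨g, hg, hv, hp⟩ := h
  obtain ⟨g', hg', hv', hp'⟩ := h'
  exact ⟨g' * g, H.mul_mem hg' hg, by rw [act_mul_apply, hv, hv'], by rw [act_mul_apply, hp, hp']⟩

/-- One transvection moves a unit vector to a second one, at inner product `1 + m`. -/
theorem move_step {k : ℕ} (hk : k < n) (hup : Upto hF H k) {w₁ w₂ : Fin n → F}
    (h₁ : ∀ i : Fin n, k ≤ i.val → w₁ i = 0) (h₂ : ∀ i : Fin n, k ≤ i.val → w₂ i = 0)
    (h11 : B w₁ w₁ = 1) (h22 : B w₂ w₂ = 1) {m : F} (hm0 : m ≠ 0) (hm : m + σ m = 0)
    (h12 : B w₁ w₂ = 1 + m) : Moves H (u n k) w₁ w₂ := by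
  set d := w₂ - w₁ with hd
  have h21 : B w₂ w₁ = 1 + σ m := by rw [← ub_symm hF, h12, map_add, map_one]
  have hdd : B d d = 0 := by
    simp only [hd, ub_sub_left hF, ub_sub_right hF, h11, h22, h12, h21]
    linear_combination -hm
  have hds : ∀ i : Fin n, k ≤ i.val → d i = 0 := fun i hi => by simp [hd, h₁ i hi, h₂ i hi]
  have hm' : -1 / m + σ (-1 / m) = 0 := by
    rw [map_div₀, map_neg, map_one]
    have hσm : σ m = -m := by linear_combination hm
    rw [hσm]
    field_simp
    ring
  refine ⟨_, hup d hds hdd _ hm', ?_, ?_⟩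
  · rw [act_tv hF hdd hm']
    have : -1 / m * B d w₁ = 1 := by
      rw [hd, ub_sub_left hF, h21, h11]
      field_simp
      linear_combination -hm
    rw [this, one_smul, hd, add_sub_cancel]
  · refine tv_fix hF hdd hm' ?_
    rw [← ub_symm hF, ub_u_left hF hk, hds ⟨k, hk⟩ le_rfl, map_zero]

/-- Unit vectors below `k` are all images of the last of them. -/
theorem moves_last (hq : 3 ≤ q) {k : ℕ} (hk3 : 3 ≤ k) (hk : k < n) (hup : Upto hF H k) {w : Fin n → F}
    (hw : ∀ i : Fin n, k ≤ i.val → w i = 0) (hww : B w w = 1) : Moves H (u n k) (u n (k - 1)) w := by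
  classical
  obtain ⟨δ, hδ, hδT⟩ := exists_delta hF
  obtain ⟨γ, hγ0, hγ1, hγσ, -, -⟩ := exists_gamma hF hq
  obtain ⟨t₀, ht₀⟩ := exists_trace_one hF
  set v : Fin n → F := u n (k - 1) with hv
  have hl : k - 1 < n := by omega
  have hvv : B v v = 1 := ub_u_self hF hl
  have hvs : ∀ i : Fin n, k ≤ i.val → (v : Fin n → F) i = 0 := fun i hi => by
    simp only [hv, u]; rw [if_neg (by omega)]
  -- combinations `r + a • v`
  have hval : ∀ r : Fin n → F, (∀ i : Fin n, k - 1 ≤ i.val → r i = 0) → B v r = 0 ∧ B r v = 0 := by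
    intro r hr
    have h : B v r = 0 := by rw [hv, ub_u_left hF hl, hr _ le_rfl]
    exact ⟨h, ub_eq_zero_symm hF h⟩
  have hsupp : ∀ (r : Fin n → F) (a : F), (∀ i : Fin n, k - 1 ≤ i.val → r i = 0) →
      ∀ i : Fin n, k ≤ i.val → (r + a • v) i = 0 := by
    intro r a hr i hi
    simp [hr i (by omega), hvs i hi]
  have hscal : ∀ c₁ c₂ : F, Moves H (u n k) v (c₁ • v) → Moves H (u n k) v (c₂ • v) →
      Moves H (u n k) v ((c₁ * c₂) • v) := by
    intro c₁ c₂ h1 h2
    refine h1.trans ?_
    obtain ⟨g, hg, hgv, hgp⟩ := h2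
    exact ⟨g, hg, by rw [map_smul, hgv, smul_smul], hgp⟩
  -- through `r₁ + (1 + m) • v`
  have hvia : ∀ (r r₁ : Fin n → F) (c m m₂ : F), (∀ i : Fin n, k - 1 ≤ i.val → r i = 0) →
      (∀ i : Fin n, k - 1 ≤ i.val → r₁ i = 0) → B r r + σ c * c = 1 → m ≠ 0 → m + σ m = 0 →
      B r₁ r₁ = m ^ 2 → m₂ ≠ 0 → m₂ + σ m₂ = 0 → B r₁ r + σ (1 + m) * c = 1 + m₂ →
      Moves H (u n k) v (r + c • v) := by
    intro r r₁ c m m₂ hr hr₁ hnorm hm hmT hr₁m hm₂ hm₂T hB
    obtain ⟨h1, h2⟩ := hval r hr
    obtain ⟨h3, h4⟩ := hval r₁ hr₁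
    have hσm : σ m = -m := by linear_combination hmT
    have hn1 : B (r₁ + (1 + m) • v) (r₁ + (1 + m) • v) = 1 := by
      simp only [ub_add_left hF, ub_add_right hF, ub_smul_left hF, ub_smul_right hF, h3, h4, hvv,
        hr₁m, map_add, map_one, hσm]
      ring
    refine (move_step hF hk hup hvs (hsupp r₁ (1 + m) hr₁) hvv hn1 hm hmT ?_).trans
      (move_step hF hk hup (hsupp r₁ (1 + m) hr₁) (hsupp r c hr) hn1 ?_ hm₂ hm₂T ?_)
    · rw [ub_add_right hF, ub_smul_right hF, h3, hvv]; ring
    · simp only [ub_add_left hF, ub_add_right hF, ub_smul_left hF, ub_smul_right hF, h1, h2, hvv]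
      linear_combination hnorm
    · simp only [ub_add_left hF, ub_add_right hF, ub_smul_left hF, ub_smul_right hF, h1, h4, hvv]
      linear_combination hB
  -- the decomposition of `w`
  set c := w ⟨k - 1, hl⟩ with hc
  set r := w - c • v with hrdef
  have hr : ∀ i : Fin n, k - 1 ≤ i.val → r i = 0 := by
    intro i hi
    rcases eq_or_ne i.val (k - 1) with h | h
    · have : i = ⟨k - 1, hl⟩ := Fin.ext h
      simp [hrdef, hc, this, hv, u]
    · simp [hrdef, hw i (by omega), hvs i (by omega)]
  have hwr : w = r + c • v := by rw [hrdef, sub_add_cancel]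
  obtain ⟨hvr, hrv⟩ := hval r hr
  have hnorm : B r r + σ c * c = 1 := by
    have h := hww
    rw [hwr] at h
    simp only [ub_add_left hF, ub_add_right hF, ub_smul_left hF, ub_smul_right hF, hvr, hrv, hvv] at h
    linear_combination h
  have hexnorm : ∀ μ : F, σ μ = μ → ∃ r₁ : Fin n → F, (∀ i : Fin n, k - 1 ≤ i.val → r₁ i = 0) ∧
      B r₁ r₁ = μ := by
    intro μ hμ
    obtain ⟨x, hx⟩ := exists_norm hF μ hμ
    refine ⟨x • u n 0, fun i hi => by simp [u, show i.val ≠ 0 by omega], ?_⟩
    rw [ub_smul_left hF, ub_smul_right hF, ub_u_self hF (by omega), mul_one, mul_comm, hx]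
  have hsqfix : ∀ m : F, m + σ m = 0 → σ (m ^ 2) = m ^ 2 := fun m hm => by
    rw [map_pow, show σ m = -m by linear_combination hm, neg_sq]
  rcases eq_or_ne r 0 with hr0 | hr0
  · -- a multiple of `v`
    rw [hwr, hr0, zero_add]
    rw [hr0, ub_zero_left, zero_add] at hnorm
    have hnon : ∀ c : F, σ c * c = 1 → σ c ≠ c → Moves H (u n k) v (c • v) := by
      intro c hnorm hσc
      have hd : c - σ c ≠ 0 := fun h => hσc (sub_eq_zero.1 h).symm
      have hd' : σ c - c ≠ 0 := fun h => hσc (sub_eq_zero.1 h)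
      set m := (c + σ c - 2) / (c - σ c) with hm
      have hmT : m + σ m = 0 := by
        rw [hm, map_div₀, map_sub, map_sub, map_add, sig_sig hF, map_ofNat]
        field_simp
        ring
      have hσm : σ m = -m := by linear_combination hmT
      have hm0 : m ≠ 0 := by
        intro h
        rw [hm, div_eq_zero_iff] at h
        have h' := h.resolve_right hd
        have hsq : (c - 1) ^ 2 = 0 := by linear_combination c * h' - hnorm
        have hc1 : c = 1 := sub_eq_zero.1 (pow_eq_zero_iff two_ne_zero |>.1 hsq)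
        exact hσc (by rw [hc1, map_one])
      obtain ⟨r₁, hr₁, hr₁m⟩ := hexnorm (m ^ 2) (hsqfix m hmT)
      set m₂ := (1 - m) * c - 1 with hm₂
      have hm₂0 : m₂ ≠ 0 := by
        intro h
        have h1 : (1 - m) * c = 1 := sub_eq_zero.1 h
        have h1' : (1 + m) * σ c = 1 := by
          have := congrArg σ h1
          rw [map_mul, map_sub, map_one, hσm, sub_neg_eq_add] at this
          exact this
        have hsq : m ^ 2 = 0 := by
          linear_combination (-(1 + m) * σ c) * h1 - h1' + (1 - m) * (1 + m) * hnorm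
        exact hm0 (pow_eq_zero_iff two_ne_zero |>.1 hsq)
      have hm₂T : m₂ + σ m₂ = 0 := by
        rw [hm₂, map_sub, map_mul, map_sub, map_one, hσm]
        have : m * (c - σ c) = c + σ c - 2 := by rw [hm, div_mul_cancel₀ _ hd]
        linear_combination -this
      have := hvia 0 r₁ c m m₂ (by simp) hr₁ (by rw [ub_zero_left, zero_add, hnorm]) hm0 hmT hr₁m hm₂0 hm₂T
        (by rw [ub_zero_right, zero_add, map_add, map_one, hσm, hm₂]; ring)
      rwa [zero_add] at this
    by_cases hσc : σ c = c
    · by_cases hc1 : c = 1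
      · rw [hc1, one_smul]; exact ⟨1, H.one_mem, by rw [act_one]; rfl, by rw [act_one]; rfl⟩
      rw [hσc] at hnorm
      have hc2 : c = -1 := (mul_self_eq_one_iff.1 hnorm).resolve_left hc1
      have h2 : (2 : F) ≠ 0 := fun h => hc1 (by rw [hc2]; linear_combination -h)
      have hσδ : σ δ = -δ := by linear_combination hδT
      have hne : ∀ x : F, x + σ x = 0 → 1 + x ≠ 0 := by
        intro x hx h
        have hσ := congrArg σ h
        rw [map_add, map_one, map_zero] at hσ
        exact h2 (by linear_combination h + hσ - hx)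
      have hne1 := hne δ hδT
      have hne2 : 1 - δ ≠ 0 := by
        rw [sub_eq_add_neg]
        exact hne (-δ) (by rw [map_neg]; linear_combination -hδT)
      set c₁ := (1 + δ) / (1 - δ) with hc₁
      have hσc₁ : σ c₁ = (1 - δ) / (1 + δ) := by
        rw [hc₁, map_div₀, map_add, map_sub, map_one, hσδ, sub_neg_eq_add, ← sub_eq_add_neg]
      have hn1 : σ c₁ * c₁ = 1 := by rw [hσc₁, hc₁]; field_simp
      have hnf1 : σ c₁ ≠ c₁ := by
        rw [hσc₁, hc₁]
        intro h
        rw [div_eq_div_iff hne1 hne2] at h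
        refine hδ ?_
        have : (2 : F) * 2 * δ = 0 := by linear_combination -h
        simpa [h2] using this
      have hc₁0 : c₁ ≠ 0 := fun h => by simp [h] at hn1
      have hσc₁0 : σ c₁ ≠ 0 := fun h => hc₁0 ((map_eq_zero _).1 h)
      have hn2 : σ (c / c₁) * (c / c₁) = 1 := by
        rw [map_div₀, hσc, div_mul_div_comm, hn1, hnorm, div_one]
      have hnf2 : σ (c / c₁) ≠ c / c₁ := by
        rw [map_div₀, hσc]
        intro h
        rw [div_eq_div_iff hσc₁0 hc₁0] at h
        exact hnf1 (mul_left_cancel₀ (by rw [hc2]; simp) h.symm)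
      have := hscal c₁ (c / c₁) (hnon _ hn1 hnf1) (hnon _ hn2 hnf2)
      rwa [mul_div_cancel₀ _ hc₁0] at this
    · exact hnon c hnorm hσc
  · rw [hwr]
    have hσδ : σ δ = -δ := by linear_combination hδT
    have hσμ : σ (δ ^ 2) = δ ^ 2 := hsqfix δ hδT
    obtain ⟨i, hi⟩ : ∃ i, r i ≠ 0 := Function.ne_iff.1 hr0
    have hik : i.val < k - 1 := by
      by_contra h
      exact hi (hr i (by omega))
    set M := B r r with hMdef
    have hσM : σ M = M := ub_self_fixed hF r
    rcases eq_or_ne M 0 with hM | hM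
    · obtain ⟨m₂, hm₂, hm₂T, hz⟩ : ∃ m₂, m₂ ≠ 0 ∧ m₂ + σ m₂ = 0 ∧ 1 + m₂ - σ (1 + δ) * c ≠ 0 := by
        by_cases h : 1 + δ - σ (1 + δ) * c = 0
        · refine ⟨γ * δ, mul_ne_zero hγ0 hδ, by rw [map_mul, hγσ]; linear_combination γ * hδT, fun h' => ?_⟩
          have : (γ - 1) * δ = 0 := by linear_combination h' - h
          rcases mul_eq_zero.1 this with h'' | h''
          · exact hγ1 (sub_eq_zero.1 h'')
          · exact hδ h''
        · exact ⟨δ, hδ, hδT, h⟩
      set z := 1 + m₂ - σ (1 + δ) * c with hzdef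
      set α := σ (z / r i) with hα
      set ui : Fin n → F := Pi.single i 1 with hui
      set t := (δ ^ 2 - σ α * α) * t₀ / z with ht
      have hBir : B ui r = r i := by rw [hui, ub_single_left hF, map_one, one_mul]
      have hBri : B r ui = σ (r i) := by rw [← ub_symm hF, hBir]
      have hBii : B ui ui = 1 := by rw [hui, ub_single_left hF, map_one, one_mul, Pi.single_eq_same]
      have hzr : σ α * r i = z := by rw [hα, sig_sig hF, div_mul_cancel₀ _ hi]
      refine hvia r (α • ui + t • r) c δ m₂ hr (fun j hj => ?_) hnorm hδ hδT ?_ hm₂ hm₂T ?_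
      · simp [hr j hj, hui, Pi.single_apply, show ¬ j = i from fun h => by omega]
      · simp only [ub_add_left hF, ub_add_right hF, ub_smul_left hF, ub_smul_right hF, hBir, hBri, hBii,
          hM, ← hMdef]
        have hA : t * z = (δ ^ 2 - σ α * α) * t₀ := by rw [ht, div_mul_cancel₀ _ hz]
        have hfix : σ (δ ^ 2 - σ α * α) = δ ^ 2 - σ α * α := by
          rw [map_sub, map_mul, sig_sig hF, hσμ, mul_comm]
        have hA' : σ t * σ z = (δ ^ 2 - σ α * α) * σ t₀ := by
          rw [← map_mul, hA, map_mul, hfix]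
        have hzr' : α * σ (r i) = σ z := by rw [← hzr, map_mul, sig_sig hF]
        linear_combination hA + hA' + t * hzr + σ t * hzr' + (δ ^ 2 - σ α * α) * ht₀
      · simp only [ub_add_left hF, ub_smul_left hF, hBir, ← hMdef, hM, mul_zero, add_zero, hzr, hzdef]
        ring
    · set z := 1 + δ - σ (1 + δ) * c with hzdef
      set t := σ (z / M) with ht
      set μ := δ ^ 2 - σ t * t * M with hμdef
      have hμfix : σ μ = μ := by
        rw [hμdef, map_sub, map_mul, map_mul, sig_sig hF, hσμ, hσM]
        ring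
      have htM : σ t * M = z := by rw [ht, sig_sig hF, div_mul_cancel₀ _ hM]
      -- a vector of norm `μ` orthogonal to `r`
      obtain ⟨s₀, hs₀, hrs₀, hs₀s₀⟩ : ∃ s : Fin n → F, (∀ j : Fin n, k - 1 ≤ j.val → s j = 0) ∧
          B r s = 0 ∧ B s s ≠ 0 := by
        by_contra hcon
        push Not at hcon
        let p : Fin n → Fin n → F := fun j => Pi.single j 1 - (σ (r j) / M) • r
        have hrp : ∀ j : Fin n, B r (p j) = 0 := by
          intro j
          simp only [p, ub_sub_right hF, ub_smul_right hF, ub_single_right hF, ← hMdef]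
          field_simp
          ring
        have hps : ∀ j : Fin n, j.val < k - 1 → ∀ l : Fin n, k - 1 ≤ l.val → p j l = 0 := by
          intro j hj l hl'
          simp [p, hr l hl', Pi.single_apply, show ¬ l = j from fun h => by omega]
        have hpp : ∀ j l : Fin n, B (p j) (p l) = (if j = l then 1 else 0) - r j * σ (r l) / M := by
          intro j l
          simp only [p, ub_sub_left hF, ub_sub_right hF, ub_smul_left hF, ub_smul_right hF,
            ub_single_right hF, ub_single_left hF, ← hMdef, map_div₀, sig_sig hF, hσM, map_one, one_mul,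
            mul_one, Pi.single_apply]
          rcases eq_or_ne j l with h | h
          · rw [if_pos h, if_pos h.symm, map_one]
            field_simp
            ring
          · rw [if_neg h, if_neg (Ne.symm h), map_zero]
            field_simp
            ring
        have hN : ∀ j : Fin n, j.val < k - 1 → r j * σ (r j) = M := by
          intro j hj
          have h := hcon (p j) (hps j hj) (hrp j)
          rw [hpp, if_pos rfl, sub_eq_zero] at h
          field_simp at h
          linear_combination -h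
        set j₀ : Fin n := ⟨0, by omega⟩
        set j₁ : Fin n := ⟨1, by omega⟩
        have h01 : j₀ ≠ j₁ := by simp [j₀, j₁]
        have hr₀ : r j₀ ≠ 0 := fun h => hM (by rw [← hN j₀ (show 0 < k - 1 by omega), h, zero_mul])
        have hr₁ : r j₁ ≠ 0 := fun h => hM (by rw [← hN j₁ (show 1 < k - 1 by omega), h, zero_mul])
        set β := B (p j₀) (p j₁) with hβdef
        have hβ : β ≠ 0 := by
          rw [hβdef, hpp, if_neg h01]
          simp [hr₀, hr₁, hM]
        have h := hcon (p j₀ + (t₀ / β) • p j₁)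
          (fun l hl' => by simp [hps j₀ (show 0 < k - 1 by omega) l hl', hps j₁ (show 1 < k - 1 by omega) l hl'])
          (by rw [ub_add_right hF, ub_smul_right hF, hrp, hrp, mul_zero, add_zero])
        simp only [ub_add_left hF, ub_add_right hF, ub_smul_left hF, ub_smul_right hF] at h
        rw [hcon (p j₀) (hps j₀ (show 0 < k - 1 by omega)) (hrp j₀),
          hcon (p j₁) (hps j₁ (show 1 < k - 1 by omega)) (hrp j₁), ← ub_symm hF (p j₀) (p j₁),
          ← hβdef, map_div₀] at h
        have hσβ : σ β ≠ 0 := fun h => hβ ((map_eq_zero _).1 h)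
        rw [div_mul_cancel₀ _ hσβ, div_mul_cancel₀ _ hβ] at h
        exact one_ne_zero (α := F) (by linear_combination h - ht₀)
      obtain ⟨x, hx⟩ := exists_norm hF (μ / B s₀ s₀) (by rw [map_div₀, hμfix, ub_self_fixed hF])
      refine hvia r (t • r + x • s₀) c δ δ hr (fun j hj => by simp [hr j hj, hs₀ j hj]) hnorm hδ hδT ?_ hδ
        hδT ?_
      · simp only [ub_add_left hF, ub_add_right hF, ub_smul_left hF, ub_smul_right hF, hrs₀,
          ub_eq_zero_symm hF hrs₀, ← hMdef]
        have : σ x * x * B s₀ s₀ = μ := by rw [mul_comm (σ x), hx, div_mul_cancel₀ _ hs₀s₀]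
        linear_combination this + hμdef
      · simp only [ub_add_left hF, ub_smul_left hF, ub_eq_zero_symm hF hrs₀, ← hMdef, htM, hzdef]
        ring

/-- One more coordinate. -/
theorem upto_succ (hq : 3 ≤ q) {k : ℕ} (hk3 : 3 ≤ k) (hk : k < n) {ν : F} (hν : σ ν * ν = -1)
    (hup : Upto hF H k) (hfull : Full hF H (u n (k - 1) + ν • u n k)) : Upto hF H (k + 1) := by
  intro x hxs hxx
  set c := x ⟨k, hk⟩ with hc
  by_cases hc0 : c = 0
  · refine hup x (fun i hi => ?_) hxx
    rcases eq_or_ne i.val k with h | h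
    · rw [show i = ⟨k, hk⟩ from Fin.ext h, ← hc, hc0]
    · exact hxs i (by omega)
  have hν0 : ν ≠ 0 := fun h => by simp [h] at hν
  set s := ν / c with hs
  have hs0 : s ≠ 0 := div_ne_zero hν0 hc0
  set w := s • x - ν • u n k with hw
  have hws : ∀ i : Fin n, k ≤ i.val → w i = 0 := by
    intro i hi
    rcases eq_or_ne i.val k with h | h
    · simp [hw, hs, show i = ⟨k, hk⟩ from Fin.ext h, u, ← hc, div_mul_cancel₀ _ hc0]
    · simp [hw, hxs i (by omega), u, h]
  have hsx : s • x = w + ν • u n k := by rw [hw, sub_add_cancel]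
  have hwp : B (u n k) w = 0 := by rw [ub_u_left hF hk, hws _ le_rfl]
  have hww : B w w = 1 := by
    have h : B (s • x) (s • x) = 0 := by rw [ub_smul_left hF, ub_smul_right hF, hxx, mul_zero, mul_zero]
    rw [hsx] at h
    simp only [ub_add_left hF, ub_add_right hF, ub_smul_left hF, ub_smul_right hF, hwp,
      ub_eq_zero_symm hF hwp, ub_u_self hF hk] at h
    linear_combination h - hν
  obtain ⟨g, hg, hgv, hgp⟩ := moves_last hF hq hk3 hk hup hws hww
  have he : B (u n (k - 1) + ν • u n k) (u n (k - 1) + ν • u n k) = 0 := by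
    have h1 : k - 1 < n := by omega
    simp only [ub_add_left hF, ub_add_right hF, ub_smul_left hF, ub_smul_right hF, ub_u_self hF hk,
      ub_u_self hF h1, ub_u_ne hF h1 (show k - 1 ≠ k by omega), ub_u_ne hF hk (show k ≠ k - 1 by omega)]
    linear_combination hν
  have h := hfull.conj hF he hg
  rw [map_add, map_smul, hgv, hgp, ← hsx] at h
  have h' := h.smul hF (by rw [ub_smul_left hF, ub_smul_right hF, hxx, mul_zero, mul_zero]) s⁻¹
  rwa [smul_smul, inv_mul_cancel₀ hs0, one_smul] at h'

/-- Two generators for `q ≥ 3`, `n ≥ 4`. -/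
theorem exists_two_big (hq : 3 ≤ q) (hn : 4 ≤ n) :
    ∃ a b : Cfsg.SU n F q, Subgroup.closure ({a, b} : Set (Cfsg.SU n F q)) = ⊤ := by
  obtain ⟨δ, hδ, hδT⟩ := exists_delta hF
  obtain ⟨γ, hγ0, hγ1, hγσ, hγq, hγgen⟩ := exists_gamma hF hq
  obtain ⟨t, ht⟩ := exists_trace_one hF
  obtain ⟨ν, hνν⟩ := exists_norm hF (-1 : F) (by rw [map_neg, map_one])
  have hν : σ ν * ν = -1 := by rw [mul_comm, hνν]
  have hν0 : ν ≠ 0 := fun h => by simp [h] at hν
  let e : ℕ → Fin n → F := fun k => u n k + ν • u n (k + 1)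
  have hee : ∀ k, k + 1 < n → B (e k) (e k) = 0 := by
    intro k hk
    simp only [e, ub_add_left hF, ub_add_right hF, ub_smul_left hF, ub_smul_right hF,
      ub_u_self hF hk, ub_u_self hF (show k < n by omega), ub_u_ne hF (show k < n by omega) (show k ≠ k + 1 by omega),
      ub_u_ne hF hk (show k + 1 ≠ k by omega)]
    linear_combination hν
  set φ : Fin n → F := u n 2 - t • e 2 with hφ
  have hB22 : B (e 2) (u n 2) = 1 := by
    simp only [e, ub_add_left hF, ub_smul_left hF, ub_u_self hF (show 2 < n by omega),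
      ub_u_ne hF (show 3 < n by omega) (show 3 ≠ 2 by omega), mul_zero, add_zero]
  have hB22' : B (u n 2) (e 2) = 1 := by rw [← ub_symm hF, hB22, map_one]
  have hφφ : B φ φ = 0 := by
    simp only [hφ, ub_sub_left hF, ub_sub_right hF, ub_smul_left hF, ub_smul_right hF, hB22, hB22',
      ub_u_self hF (show 2 < n by omega), hee 2 (by omega)]
    linear_combination -ht
  have heφ : B (e 2) φ = 1 := by
    simp only [hφ, ub_sub_right hF, ub_smul_right hF, hB22, hee 2 (by omega)]
    ring
  have hex : ∀ γ' : F, ∃ g : Cfsg.SU n F q, γ' ≠ 0 → σ γ' = γ' → ∀ x,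
      act g x = x + ((γ' - 1) * B φ x) • e 2 + ((γ'⁻¹ - 1) * B (e 2) x) • φ := fun γ' => by
    by_cases h : γ' ≠ 0 ∧ σ γ' = γ'
    · obtain ⟨g, hg⟩ := exists_tor hF (e 2) φ (hee 2 (by omega)) hφφ heφ γ' h.1 h.2
      exact ⟨g, fun _ _ => hg⟩
    · exact ⟨1, fun h1 h2 => absurd ⟨h1, h2⟩ h⟩
  choose tor htor using hex
  have hφe : B φ (e 2) = 1 := by rw [← ub_symm hF, heφ, map_one]
  set T := tor γ with hTdef
  have hTx := htor γ hγ0 hγσ
  have hTpow : ∀ (j : ℕ) x, act (T ^ j) x =
      x + ((γ ^ j - 1) * B φ x) • e 2 + (((γ ^ j)⁻¹ - 1) * B (e 2) x) • φ := by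
    intro j
    induction j with
    | zero => intro x; simp [act_one]
    | succ j ih =>
      intro x
      rw [pow_succ', act_mul_apply, ih, hTdef, hTx]
      simp only [ub_add_right hF, ub_smul_right hF, hee 2 (show 2 + 1 < n by omega), hφφ, heφ, hφe]
      rw [pow_succ', mul_inv]
      match_scalars <;> ring
  have hTq : T ^ (q - 1) = 1 := su_ext fun x => by
    rw [hTpow, hγq, act_one, inv_one, sub_self, zero_mul, zero_mul, zero_smul, zero_smul, add_zero,
      add_zero]
    rfl
  have hTfix : ∀ x : Fin n → F, B (u n 2) x = 0 → B (u n 3) x = 0 → act T x = x := by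
    intro x h2 h3
    have h4 : B (e 2) x = 0 := by
      simp only [e, ub_add_left hF, ub_smul_left hF, h2, h3, mul_zero, add_zero]
    have h5 : B φ x = 0 := by
      simp only [hφ, ub_sub_left hF, ub_smul_left hF, h2, h4, mul_zero, sub_zero]
    rw [hTdef, hTx, h4, h5, mul_zero, mul_zero, zero_smul, zero_smul, add_zero, add_zero]
  have hTe2 : act T (e 2) = γ • e 2 := by
    rw [hTdef, hTx, hφe, hee 2 (by omega), mul_zero, zero_smul, add_zero]
    match_scalars <;> ring
  obtain ⟨b, hbu, -⟩ := exists_cyc hF (n := n) (by omega)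
  have hbe : ∀ k, k + 2 < n → act b (e k) = e (k + 1) := by
    intro k hk
    simp only [e, map_add, map_smul, hbu k (by omega), hbu (k + 1) (by omega)]
  set a := root hF (e 0) 0 δ * T with ha
  refine ⟨a, b, ?_⟩
  set H := Subgroup.closure ({a, b} : Set (Cfsg.SU n F q)) with hH
  have hbH : b ∈ H := Subgroup.subset_closure (Or.inr rfl)
  have haH : a ∈ H := Subgroup.subset_closure (Or.inl rfl)
  have hTe0 : act T (e 0) = e 0 := by
    apply hTfix <;>
    · simp only [e, ub_add_right hF, ub_smul_right hF]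
      rw [ub_u_ne hF (by omega) (by omega), ub_u_ne hF (by omega) (by omega), mul_zero, add_zero]
  have hcomm := tv_comm hF T (hee 0 (by omega)) (t := 1) (by rw [map_one, one_mul])
    (by rw [hTe0, one_smul]) hδT
  have hq0 : (q : F) = 0 := by
    have h := Nat.cast_card_eq_zero F
    rw [hF, Nat.cast_pow] at h
    exact (pow_eq_zero_iff two_ne_zero).1 h
  have hTH : T ∈ H := by
    have h : a ^ q = T := by
      rw [ha, hcomm.mul_pow, tv_pow hF (hee 0 (by omega)) hδT, hq0, zero_mul, tv_zero hF (hee 0 (by omega)),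
        one_mul]
      rw [show T ^ q = T ^ (q - 1) * T by rw [← pow_succ]; congr 1; omega, hTq, one_mul]
    rw [← h]
    exact H.pow_mem haH q
  have htvH : root hF (e 0) 0 δ ∈ H := by
    have := H.mul_mem haH (H.inv_mem hTH)
    rwa [ha, mul_inv_cancel_right] at this
  have hb2 : act (b ^ 2) (e 0) = e 2 := by
    rw [pow_two, act_mul_apply, hbe 0 (by omega), hbe 1 (by omega)]
  have hcancel : ∀ (g : Cfsg.SU n F q) (x : Fin n → F), act g⁻¹ (act g x) = x := fun g x => by
    rw [← act_mul_apply, inv_mul_cancel, act_one]; rfl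
  have hfull0 : Full hF H (e 0) := by
    refine full_of_closed hF (hee 0 (by omega)) hδ hδT htvH
      (h := (b ^ 2)⁻¹ * T * b ^ 2) (H.mul_mem (H.mul_mem (H.inv_mem (H.pow_mem hbH 2)) hTH)
        (H.pow_mem hbH 2)) (ρ := γ) ?_ (gen_sq hγσ hγgen (sqrt_fixed hF))
    rw [act_mul_apply, act_mul_apply, hb2, hTe2, map_smul, ← hb2, hcancel]
  have hfull : ∀ k, k + 1 < n → Full hF H (e k) := by
    intro k hk
    induction k with
    | zero => exact hfull0
    | succ k ih =>
      have := (ih (by omega)).conj hF (hee k (by omega)) hbH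
      rwa [hbe k (by omega)] at this
  -- a third isotropic point on the first three coordinates
  set y := act (b⁻¹ * T * b) (e 0) with hy
  have hyy : B y y = 0 := by rw [hy, act_ub hF, hee 0 (by omega)]
  have hyfull : Full hF H y :=
    hfull0.conj hF (hee 0 (by omega)) (H.mul_mem (H.mul_mem (H.inv_mem hbH) hTH) hbH)
  set c₁ := (γ - γ⁻¹) * t with hc₁
  have hyval : y = e 0 + (ν * c₁) • e 1 + (ν * (γ⁻¹ - 1)) • u n 1 := by
    apply act_injective b
    have hb0 : act b (e 0) = e 1 := hbe 0 (by omega)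
    have hb1 : act b (e 1) = e 2 := hbe 1 (by omega)
    have hb1' : act b (u n 1 : Fin n → F) = u n 2 := hbu 1 (by omega)
    rw [hy, ← act_mul_apply, ← mul_assoc, mul_inv_cancel_left, act_mul_apply, hb0, hTdef, hTx, map_add,
      map_add, map_smul, map_smul, hb0, hb1, hb1']
    have h1 : B (e 2) (e 1) = ν := by
      simp only [e, ub_add_left hF, ub_add_right hF, ub_smul_left hF, ub_smul_right hF,
        ub_u_self hF (show 2 < n by omega), ub_u_ne hF (show 2 < n by omega) (show 2 ≠ 1 by omega),
        ub_u_ne hF (show 3 < n by omega) (show 3 ≠ 1 by omega),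
        ub_u_ne hF (show 3 < n by omega) (show 3 ≠ 2 by omega), mul_zero, add_zero, zero_add, mul_one]
    have h2 : B φ (e 1) = t * ν := by
      have h3 : B (u n 2) (e 1) = ν := by
        simp only [e, ub_add_right hF, ub_smul_right hF, ub_u_self hF (show 2 < n by omega),
          ub_u_ne hF (show 2 < n by omega) (show 2 ≠ 1 by omega), mul_one, zero_add]
      rw [hφ, ub_sub_left hF, ub_smul_left hF, h1, h3]
      linear_combination (-ν) * ht
    rw [h1, h2, hφ, hc₁]
    match_scalars <;> ring
  -- the frame `e 0`, `e 1 / σ ν`, `z`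
  have hσν : σ ν ≠ 0 := fun h => hν0 ((map_eq_zero _).1 h)
  set f : Fin n → F := (σ ν)⁻¹ • e 1 with hf
  set z : Fin n → F := σ ν ^ 2 • u n 0 - σ ν • u n 1 + u n 2 with hz
  have hBez : ∀ x : Fin n → F, B (e 0) x = x ⟨0, by omega⟩ + σ ν * x ⟨1, by omega⟩ ∧
      B (e 1) x = x ⟨1, by omega⟩ + σ ν * x ⟨2, by omega⟩ := fun x => by
    simp only [e, ub_add_left hF, ub_smul_left hF, ub_u_left hF (show 0 < n by omega),
      ub_u_left hF (show 0 + 1 < n by omega), ub_u_left hF (show 1 < n by omega),
      ub_u_left hF (show 1 + 1 < n by omega), and_self]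
  have hBz : ∀ x : Fin n → F,
      B z x = ν ^ 2 * x ⟨0, by omega⟩ - ν * x ⟨1, by omega⟩ + x ⟨2, by omega⟩ := fun x => by
    simp only [hz, ub_add_left hF, ub_sub_left hF, ub_smul_left hF, map_pow, sig_sig hF,
      ub_u_left hF (show 0 < n by omega), ub_u_left hF (show 1 < n by omega),
      ub_u_left hF (show 2 < n by omega)]
  have hz0 : z ⟨0, by omega⟩ = σ ν ^ 2 := by simp [hz, u]
  have hz1 : z ⟨1, by omega⟩ = -σ ν := by simp [hz, u]
  have hz2 : z ⟨2, by omega⟩ = 1 := by simp [hz, u]
  have hff : B f f = 0 := by rw [hf, ub_smul_left hF, ub_smul_right hF, hee 1 (by omega), mul_zero, mul_zero]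
  have hef : B (e 0) f = 1 := by
    rw [hf, ub_smul_right hF, (hBez (e 1)).1]
    simp [-Forms.frobQ_apply, e, u, hσν]
  have hez : B (e 0) z = 0 := by rw [(hBez z).1, hz0, hz1]; ring
  have hfz : B f z = 0 := by rw [hf, ub_smul_left hF, (hBez z).2, hz1, hz2]; ring
  have hzz : B z z = 1 := by
    rw [hBz, hz0, hz1, hz2]
    linear_combination (σ ν * ν) * hν
  have hsupp : ∀ x : Fin n → F, (∀ i : Fin n, 3 ≤ i.val → x i = 0) →
      x = B f x • e 0 + B (e 0) x • f + B z x • z := by
    intro x hx
    have h0 : σ ν * ν + 1 = 0 := by linear_combination hν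
    funext i
    rw [hf, ub_smul_left hF, map_inv₀, sig_sig hF, (hBez x).1, (hBez x).2, hBz]
    simp only [Pi.add_apply, Pi.smul_apply, smul_eq_mul]
    rcases (by omega : i.val = 0 ∨ i.val = 1 ∨ i.val = 2 ∨ 3 ≤ i.val) with h | h | h | h
    · rw [show i = ⟨0, by omega⟩ from Fin.ext h, hz0]
      simp [-Forms.frobQ_apply, e, u]
      field_simp
      linear_combination (x ⟨0, by omega⟩ * ν * (1 - σ ν * ν) + x ⟨1, by omega⟩ * (σ ν * ν - 1)
        - σ ν * x ⟨2, by omega⟩) * h0
    · rw [show i = ⟨1, by omega⟩ from Fin.ext h, hz1]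
      simp [-Forms.frobQ_apply, e, u]
      field_simp
      linear_combination (x ⟨0, by omega⟩ * (σ ν * ν - 1) - σ ν * x ⟨1, by omega⟩) * h0
    · rw [show i = ⟨2, by omega⟩ from Fin.ext h, hz2]
      simp [-Forms.frobQ_apply, e, u]
      field_simp
      linear_combination -(ν * x ⟨0, by omega⟩) * h0
    · rw [hx i h]
      simp [e, hz, u, show i.val ≠ 0 by omega, show i.val ≠ 1 by omega, show i.val ≠ 2 by omega]
  have hys : ∀ i : Fin n, 3 ≤ i.val → y i = 0 := by
    intro i hi
    simp [hyval, e, u, show i.val ≠ 0 by omega, show i.val ≠ 1 by omega, show i.val ≠ 2 by omega]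
  have hS : B z y ≠ 0 := by
    rw [hyval, ub_add_right hF, ub_add_right hF, ub_smul_right hF, ub_smul_right hF,
      ub_eq_zero_symm hF hez]
    have h1 : B z (e 1) = 0 := by
      have := ub_eq_zero_symm hF hfz
      rw [hf, ub_smul_right hF] at this
      exact (mul_eq_zero.1 this).resolve_left (inv_ne_zero hσν)
    rw [h1, mul_zero, add_zero, zero_add, hBz]
    have hγi : γ⁻¹ - 1 ≠ 0 := fun h => hγ1 (inv_eq_one.1 (sub_eq_zero.1 h))
    simp [u, hν0, hγi]
  have h3 : Upto hF H 3 := by
    intro x hx hxx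
    have hyd := hsupp y hys
    have hxd := hsupp x hx
    have hffull : Full hF H f := (hfull 1 (by omega)).smul hF (hee 1 (by omega)) _
    rw [hxd] at hxx ⊢
    exact space3 hF (hee 0 (by omega)) hff hef hez hfz hzz hδ hδT hfull0 hffull hS
      (by rw [← hyd]; exact hyy) (by rw [← hyd]; exact hyfull) _ _ _ hxx
  have hup : ∀ k, 3 ≤ k → k ≤ n → Upto hF H k := by
    intro k hk3
    induction k, hk3 using Nat.le_induction with
    | base => exact fun _ => h3
    | succ k hk3 ih =>
      intro hk
      refine upto_succ hF hq hk3 (by omega) hν (ih (by omega)) ?_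
      have := hfull (k - 1) (by omega)
      simp only [e, show k - 1 + 1 = k by omega] at this
      exact this
  exact eq_top_of_all_full hF (by omega) (by omega) fun x hxx =>
    hup n (by omega) le_rfl x (fun i hi => absurd i.isLt (by omega)) hxx

end Cfsg.Agent.Screen.TwoGen.Unitary
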