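import Cfsg.Agent.Screen.TwoGen.Unitary.Basic

/-!
# Two generators of `SU_n(2)`, `n ≥ 4`

Over the field with four elements a transvection at a vector with two non-zero coordinates permutes them,
and a transvection at one with four non-zero coordinates lowers or raises the number of non-zero coordinates.
-/

set_option autoImplicit false
set_option linter.unusedSimpArgs false
set_option linter.unusedSectionVars false

namespace Cfsg.Agent.Screen.TwoGen.Unitary

open Matrix Cfsg.Agent.KnownA Cfsg.Agent.Forms.SUOdd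
open Cfsg.Agent.Forms (frobQ)

variable {F : Type*} [Field F] [Fintype F] {n q : ℕ} (hF : Fintype.card F = q ^ 2)
include hF

local notation "B" => ub hF
local notation "σ" => frobQ hF

omit [Fintype F] hF in
/-- A vector with two coordinates, the first of them `1`. -/
def pr (i j : Fin n) (c : F) : Fin n → F := Pi.single i 1 + Pi.single j c

theorem two_zero (hq2 : q = 2) : (2 : F) = 0 := by
  have h := Nat.cast_card_eq_zero F
  rw [hF, hq2, Nat.cast_pow] at h
  exact_mod_cast (pow_eq_zero_iff two_ne_zero).1 h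

theorem cube_one (hq2 : q = 2) {x : F} (hx : x ≠ 0) : x ^ 3 = 1 := by
  have h := FiniteField.pow_card_sub_one_eq_one x hx
  rwa [hF, hq2] at h

theorem sig_mul_self (hq2 : q = 2) {x : F} (hx : x ≠ 0) : σ x * x = 1 := by
  rw [Forms.frobQ_apply, hq2, ← pow_succ, cube_one hF hq2 hx]

theorem one_trace (hq2 : q = 2) : (1 : F) + σ 1 = 0 := by
  rw [map_one]; linear_combination two_zero hF hq2

theorem trace_cases (hq2 : q = 2) {m : F} (hm : m + σ m = 0) : m = 0 ∨ m = 1 := by
  rw [Forms.frobQ_apply, hq2] at hm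
  have h : m * (1 + m) = 0 := by linear_combination hm
  rcases mul_eq_zero.1 h with h | h
  · exact Or.inl h
  · exact Or.inr (by linear_combination h - two_zero hF hq2)

theorem exists_omega (hq2 : q = 2) : ∃ ω : F, ω ≠ 0 ∧ ω ≠ 1 := by
  classical
  obtain ⟨ω, -, hω⟩ := Finset.exists_mem_notMem_of_card_lt_card
    (s := ({0, 1} : Finset F)) (t := Finset.univ) (by
      rw [Finset.card_univ, hF, hq2]
      exact lt_of_le_of_lt Finset.card_le_two (by norm_num))
  simp only [Finset.mem_insert, Finset.mem_singleton, not_or] at hω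
  exact ⟨ω, hω.1, hω.2⟩

theorem omega_eq (hq2 : q = 2) {ω : F} (h0 : ω ≠ 0) (h1 : ω ≠ 1) : ω ^ 2 + ω + 1 = 0 := by
  have h : (ω - 1) * (ω ^ 2 + ω + 1) = 0 := by linear_combination cube_one hF hq2 h0
  exact (mul_eq_zero.1 h).resolve_left (sub_ne_zero.2 h1)

theorem nonzero_cases (hq2 : q = 2) {r x : F} (h0 : r ≠ 0) (h1 : r ≠ 1) (hx : x ≠ 0) :
    x = 1 ∨ x = r ∨ x = r ^ 2 := by
  have h : (x - 1) * ((x - r) * (x - r ^ 2)) = 0 := by
    linear_combination cube_one hF hq2 hx + (x - 1) * cube_one hF hq2 h0 -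
      (x ^ 2 - x) * omega_eq hF hq2 h0 h1
  rcases mul_eq_zero.1 h with h | h
  · exact Or.inl (sub_eq_zero.1 h)
  rcases mul_eq_zero.1 h with h | h
  · exact Or.inr (Or.inl (sub_eq_zero.1 h))
  · exact Or.inr (Or.inr (sub_eq_zero.1 h))

theorem full_of_mem (hq2 : q = 2) {H : Subgroup (Cfsg.SU n F q)} {x : Fin n → F} (hx : B x x = 0)
    (h : root hF x 0 (1 : F) ∈ H) : Full hF H x := by
  intro m hm
  rcases trace_cases hF hq2 hm with rfl | rfl
  · rw [tv_zero hF hx]; exact H.one_mem
  · exact h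

theorem ub_pr_left (i j : Fin n) (c : F) (x : Fin n → F) : B (pr i j c) x = x i + σ c * x j := by
  rw [pr, ub_add_left hF, ub_single_left hF, ub_single_left hF, map_one, one_mul]

theorem pr_iso (hq2 : q = 2) {i j : Fin n} (hij : i ≠ j) {c : F} (hc : c ≠ 0) :
    B (pr i j c) (pr i j c) = 0 := by
  rw [ub_pr_left hF]
  simp only [pr, Pi.add_apply, Pi.single_eq_same, Pi.single_eq_of_ne hij, Pi.single_eq_of_ne hij.symm,
    add_zero, zero_add]
  linear_combination sig_mul_self hF hq2 hc + two_zero hF hq2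

theorem act_pr (hq2 : q = 2) {i j : Fin n} (hij : i ≠ j) {c : F} (hc : c ≠ 0) (x : Fin n → F) :
    act (root hF (pr i j c) 0 1) x =
      fun k => if k = i then σ c * x j else if k = j then c * x i else x k := by
  have h2 := two_zero hF hq2
  funext k
  rw [act_tv hF (pr_iso hF hq2 hij hc) (one_trace hF hq2), ub_pr_left hF, one_mul]
  simp only [pr, Pi.add_apply, Pi.smul_apply, smul_eq_mul]
  by_cases hki : k = i
  · subst hki
    rw [if_pos rfl, Pi.single_eq_same, Pi.single_eq_of_ne hij]
    linear_combination x k * h2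
  · by_cases hkj : k = j
    · subst hkj
      rw [if_neg hki, if_pos rfl, Pi.single_eq_same, Pi.single_eq_of_ne hki]
      linear_combination x k * sig_mul_self hF hq2 hc + x k * h2
    · rw [if_neg hki, if_neg hkj, Pi.single_eq_of_ne hki, Pi.single_eq_of_ne hkj]
      ring

variable {H : Subgroup (Cfsg.SU n F q)}

theorem pr_symm (hq2 : q = 2) {i j : Fin n} (hij : i ≠ j) {c : F} (hc : c ≠ 0)
    (h : Full hF H (pr i j c)) : Full hF H (pr j i c⁻¹) := by
  have := h.smul hF (pr_iso hF hq2 hij hc) c⁻¹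
  rwa [pr, smul_add, ← Pi.single_smul, ← Pi.single_smul, smul_eq_mul, smul_eq_mul, mul_one,
    inv_mul_cancel₀ hc, add_comm] at this

theorem pr_trans (hq2 : q = 2) {i j l : Fin n} (hij : i ≠ j) (hjl : j ≠ l) (hil : i ≠ l) {c d : F}
    (hc : c ≠ 0) (hd : d ≠ 0) (h₁ : Full hF H (pr i j c)) (h₂ : Full hF H (pr j l d)) :
    Full hF H (pr i l (c * d)) := by
  have h := h₂.conj hF (pr_iso hF hq2 hjl hd) (h₁ 1 (one_trace hF hq2))
  have h' := h.smul hF (by rw [act_ub hF, pr_iso hF hq2 hjl hd]) c
  have e : c • act (root hF (pr i j c) 0 1) (pr j l d) = pr i l (c * d) := by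
    funext k
    rw [act_pr hF hq2 hij hc, Pi.smul_apply]
    simp only [pr, Pi.add_apply, Pi.single_apply, smul_eq_mul]
    by_cases hki : k = i
    · subst hki
      simp [-Forms.frobQ_apply, hij, hil, hjl, hij.symm, mul_comm c, sig_mul_self hF hq2 hc]
    · by_cases hkj : k = j
      · subst hkj
        simp [hki, hij, hjl, hil, hjl.symm]
      · simp [hki, hkj]
  rwa [e] at h'

/-- All three phases on a pair of coordinates. -/
def AllPh (H : Subgroup (Cfsg.SU n F q)) (i j : Fin n) : Prop :=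
  ∀ c : F, c ≠ 0 → Full hF H (pr i j c)

theorem allPh_of_two (hq2 : q = 2) {i j : Fin n} (hij : i ≠ j) {c d : F} (hc : c ≠ 0) (hd : d ≠ 0)
    (hcd : c ≠ d) (h₁ : Full hF H (pr i j c)) (h₂ : Full hF H (pr i j d)) : AllPh hF H i j := by
  have h := h₁.conj hF (pr_iso hF hq2 hij hc) (h₂ 1 (one_trace hF hq2))
  have h' := h.smul hF (by rw [act_ub hF, pr_iso hF hq2 hij hc]) (d / c)
  have e : (d / c) • act (root hF (pr i j d) 0 1) (pr i j c) = pr i j (d ^ 2 / c) := by
    funext k
    rw [act_pr hF hq2 hij hd, Pi.smul_apply]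
    simp only [pr, Pi.add_apply, Pi.single_apply, smul_eq_mul]
    by_cases hki : k = i
    · subst hki
      have := sig_mul_self hF hq2 hd
      simp [-Forms.frobQ_apply, hij, hij.symm]
      field_simp
      linear_combination this
    · by_cases hkj : k = j
      · subst hkj
        simp [hki, hij]
        field_simp
      · simp [hki, hkj]
  rw [e] at h'
  intro x hx
  have hr1 : d / c ≠ 1 := fun h => hcd (div_eq_one_iff_eq hc |>.1 h).symm
  rcases nonzero_cases hF hq2 (div_ne_zero hd hc) hr1 (div_ne_zero hx hc) with h3 | h3 | h3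
  · rw [(div_eq_one_iff_eq hc).1 h3]; exact h₁
  · rw [show x = d from (div_left_inj' hc).1 h3]; exact h₂
  · rw [show x = d ^ 2 / c by rw [← div_mul_cancel₀ x hc, h3]; field_simp]; exact h'

set_option maxHeartbeats 1000000 in
/-- Full root groups at all pairs, and at one vector of weight four, give everything. -/
theorem eq_top_of_pairs (hq2 : q = 2) (hn : 4 ≤ n) {i₀ j₀ : Fin n} (hij₀ : i₀ ≠ j₀)
    (hall : AllPh hF H i₀ j₀)
    (hadj : ∀ k (hk : k + 1 < n), ∃ c : F, c ≠ 0 ∧
      Full hF H (pr ⟨k, by omega⟩ ⟨k + 1, hk⟩ c))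
    (hZ : Full hF H (fun i : Fin n => if i.val < 4 then (1 : F) else 0)) : H = ⊤ := by
  classical
  have hone := one_trace hF hq2
  have h2 := two_zero hF hq2
  -- some phase on every pair
  have hlt : ∀ d : ℕ, 1 ≤ d → ∀ k (hk : k + d < n), ∃ c : F, c ≠ 0 ∧
      Full hF H (pr ⟨k, by omega⟩ ⟨k + d, hk⟩ c) := by
    intro d hd
    induction d, hd using Nat.le_induction with
    | base => exact hadj
    | succ d hd ih =>
      intro k hk
      obtain ⟨c, hc, hP⟩ := ih k (by omega)
      obtain ⟨c', hc', hP'⟩ := hadj (k + d) (by omega)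
      exact ⟨c * c', mul_ne_zero hc hc', pr_trans hF hq2 (Fin.ne_of_val_ne (by simp; omega))
        (Fin.ne_of_val_ne (by simp)) (Fin.ne_of_val_ne (by simp)) hc hc' hP hP'⟩
  have hsome : ∀ i j : Fin n, i ≠ j → ∃ c : F, c ≠ 0 ∧ Full hF H (pr i j c) := by
    intro i j hij
    rcases lt_or_gt_of_ne hij with h | h
    · have h' : i.val < j.val := h
      obtain ⟨c, hc, hP⟩ := hlt (j.val - i.val) (by omega) i.val (by omega)
      refine ⟨c, hc, ?_⟩
      convert hP using 3
      omega
    · have h' : j.val < i.val := h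
      obtain ⟨c, hc, hP⟩ := hlt (i.val - j.val) (by omega) j.val (by omega)
      refine ⟨c⁻¹, inv_ne_zero hc, ?_⟩
      have := pr_symm hF hq2 (Fin.ne_of_val_ne (by simp; omega)) hc hP
      convert this using 3
      omega
  -- all phases on every pair
  have hstep : ∀ i j l : Fin n, i ≠ j → i ≠ l → AllPh hF H i j → AllPh hF H i l := by
    intro i j l hij hil h c hc
    rcases eq_or_ne j l with rfl | hjl
    · exact h c hc
    obtain ⟨d, hd, hP⟩ := hsome j l hjl
    have := pr_trans hF hq2 hij hjl hil (div_ne_zero hc hd) hd (h _ (div_ne_zero hc hd)) hP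
    rwa [div_mul_cancel₀ _ hd] at this
  have hsym : ∀ i j : Fin n, i ≠ j → AllPh hF H i j → AllPh hF H j i := by
    intro i j hij h c hc
    have := pr_symm hF hq2 hij (inv_ne_zero hc) (h c⁻¹ (inv_ne_zero hc))
    rwa [inv_inv] at this
  have hP2 : ∀ i j : Fin n, i ≠ j → AllPh hF H i j := by
    intro i j hij
    rcases eq_or_ne i i₀ with rfl | hi
    · exact hstep i j₀ j hij₀ hij hall
    · exact hstep i i₀ j hi hij (hsym i₀ i hi.symm (hstep i₀ j₀ i hij₀ hi.symm hall))
  -- monomial moves
  have hswap : ∀ (x : Fin n → F) (i j : Fin n), B x x = 0 → Full hF H x →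
      B (x ∘ Equiv.swap i j) (x ∘ Equiv.swap i j) = 0 ∧ Full hF H (x ∘ Equiv.swap i j) := by
    intro x i j hx hfx
    rcases eq_or_ne i j with rfl | hij
    · simpa using ⟨hx, hfx⟩
    have e : act (root hF (pr i j (1 : F)) 0 1) x = x ∘ Equiv.swap i j := by
      funext k
      rw [act_pr hF hq2 hij one_ne_zero, map_one]
      simp only [Function.comp_apply, Equiv.swap_apply_def, one_mul]
      split_ifs <;> rfl
    rw [← e, act_ub hF]
    exact ⟨hx, hfx.conj hF hx (hP2 i j hij 1 one_ne_zero 1 hone)⟩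
  have hperm : ∀ (π : Equiv.Perm (Fin n)) (x : Fin n → F), B x x = 0 → Full hF H x → Full hF H (x ∘ π) := by
    intro π
    induction π using Equiv.Perm.swap_induction_on with
    | one => intro x _ h; simpa using h
    | swap_mul π i j _ ih =>
      intro x hx h
      obtain ⟨hx', h'⟩ := hswap x i j hx h
      simpa [Equiv.Perm.coe_mul, Function.comp_assoc] using ih _ hx' h'
  have hdiag : ∀ (x : Fin n → F) (i j : Fin n), i ≠ j → ∀ c : F, c ≠ 0 → B x x = 0 → Full hF H x →
      B (fun k => if k = i then c * x i else if k = j then c⁻¹ * x j else x k)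
        (fun k => if k = i then c * x i else if k = j then c⁻¹ * x j else x k) = 0 ∧
      Full hF H (fun k => if k = i then c * x i else if k = j then c⁻¹ * x j else x k) := by
    intro x i j hij c hc hx hfx
    have hσ : σ c⁻¹ = c := by
      have h := sig_mul_self hF hq2 (inv_ne_zero hc)
      exact (mul_inv_eq_one₀ hc).1 h
    have e : act (root hF (pr i j c⁻¹) 0 1 * root hF (pr i j (1 : F)) 0 1) x =
        fun k => if k = i then c * x i else if k = j then c⁻¹ * x j else x k := by
      funext k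
      rw [act_mul_apply, act_pr hF hq2 hij one_ne_zero, act_pr hF hq2 hij (inv_ne_zero hc)]
      simp only [map_one, one_mul, hσ, hij.symm, if_false, if_true]
      split_ifs <;> rfl
    rw [← e, act_ub hF]
    exact ⟨hx, hfx.conj hF hx (H.mul_mem (hP2 i j hij _ (inv_ne_zero hc) 1 hone)
      (hP2 i j hij 1 one_ne_zero 1 hone))⟩
  -- weight
  let supp : (Fin n → F) → Finset (Fin n) := fun x => Finset.univ.filter fun i => x i ≠ 0
  have hweight : ∀ x : Fin n → F, B x x = ((supp x).card : F) := by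
    intro x
    rw [ub_eq_sum hF, Finset.card_filter, Nat.cast_sum]
    refine Finset.sum_congr rfl fun i _ => ?_
    by_cases h : x i = 0
    · simp [h]
    · rw [if_pos h, Nat.cast_one, sig_mul_self hF hq2 h]
  set Z : Fin n → F := fun i => if i.val < 4 then 1 else 0 with hZdef
  have hsuppZ : supp Z = Finset.univ.filter fun i : Fin n => i.val < 4 := by
    ext i; simp [supp, hZdef]
  have hcardZ : (Finset.univ.filter fun i : Fin n => i.val < 4).card = 4 := by
    rw [show (Finset.univ.filter fun i : Fin n => i.val < 4) = (Finset.univ : Finset (Fin 4)).map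
      (Fin.castLEEmb hn) from ?_, Finset.card_map, Finset.card_univ, Fintype.card_fin]
    ext i
    simp only [Finset.mem_filter, Finset.mem_univ, true_and, Finset.mem_map, Fin.castLEEmb_apply]
    exact ⟨fun h => ⟨⟨i.val, h⟩, Fin.ext rfl⟩, by rintro ⟨a, rfl⟩; exact a.isLt⟩
  have hfour : (4 : F) = 0 := by linear_combination 2 * h2
  have hZiso : B Z Z = 0 := by rw [hweight, hsuppZ, hcardZ]; exact_mod_cast hfour
  have hw4 : ∀ x : Fin n → F, (supp x).card = 4 → Full hF H x := by
    intro x hx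
    let e : {i // i ∈ supp Z} ≃ {i // i ∈ supp x} := Finset.equivOfCardEq (by rw [hsuppZ, hcardZ, hx])
    set π : Equiv.Perm (Fin n) := e.extendSubtype with hπ
    set y := x ∘ π with hy
    have hyiff : ∀ i : Fin n, y i ≠ 0 ↔ i.val < 4 := by
      intro i
      constructor
      · intro h
        by_contra h'
        have := e.extendSubtype_not_mem i (by simp [hsuppZ, h'])
        simp [supp] at this
        exact h this
      · intro h
        have := e.extendSubtype_mem i (by simp [hsuppZ, h])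
        simpa [supp, hy] using this
    set k₀ : Fin n := ⟨0, by omega⟩ with hk₀
    set k₁ : Fin n := ⟨1, by omega⟩ with hk₁
    set k₂ : Fin n := ⟨2, by omega⟩ with hk₂
    set k₃ : Fin n := ⟨3, by omega⟩ with hk₃
    have h01 : k₀ ≠ k₁ := by simp [k₀, k₁]
    have h02 : k₀ ≠ k₂ := by simp [k₀, k₂]
    have h03 : k₀ ≠ k₃ := by simp [k₀, k₃]
    have h12 : k₁ ≠ k₂ := by simp [k₁, k₂]
    have h13 : k₁ ≠ k₃ := by simp [k₁, k₃]
    have h23 : k₂ ≠ k₃ := by simp [k₂, k₃]
    have hy0 : y k₀ ≠ 0 := (hyiff _).2 (show 0 < 4 by omega)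
    have hy1 : y k₁ ≠ 0 := (hyiff _).2 (show 1 < 4 by omega)
    have hy2 : y k₂ ≠ 0 := (hyiff _).2 (show 2 < 4 by omega)
    have hy3 : y k₃ ≠ 0 := (hyiff _).2 (show 3 < 4 by omega)
    set s := (y k₀ * y k₁ * y k₂ * y k₃)⁻¹ with hs
    have hs0 : s ≠ 0 := inv_ne_zero (mul_ne_zero (mul_ne_zero (mul_ne_zero hy0 hy1) hy2) hy3)
    have hprod : (s * y k₀) * (s * y k₁) * (s * y k₂) * (s * y k₃) = 1 := by
      have h3 := cube_one hF hq2 hs0
      have : s * (y k₀ * y k₁ * y k₂ * y k₃) = 1 := inv_mul_cancel₀ (mul_ne_zero (mul_ne_zero (mul_ne_zero hy0 hy1) hy2) hy3)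
      linear_combination (s * (y k₀ * y k₁ * y k₂ * y k₃)) * h3 + this
    obtain ⟨i₁, f₁⟩ := hdiag Z k₀ k₃ h03 (s * y k₀) (mul_ne_zero hs0 hy0) hZiso hZ
    obtain ⟨i₂, f₂⟩ := hdiag _ k₁ k₃ h13 (s * y k₁) (mul_ne_zero hs0 hy1) i₁ f₁
    obtain ⟨i₃, f₃⟩ := hdiag _ k₂ k₃ h23 (s * y k₂) (mul_ne_zero hs0 hy2) i₂ f₂
    have hlast : (s * y k₂)⁻¹ * ((s * y k₁)⁻¹ * (s * y k₀)⁻¹) = s * y k₃ := by
      have ha := mul_ne_zero hs0 hy0
      have hb := mul_ne_zero hs0 hy1
      have hc := mul_ne_zero hs0 hy2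
      rw [← mul_inv, ← mul_inv]
      exact (eq_inv_of_mul_eq_one_left (by linear_combination hprod)).symm
    have hlin : s • y = fun k => if k = k₂ then (s * y k₂) * 1 else if k = k₃ then
        (s * y k₂)⁻¹ * ((s * y k₁)⁻¹ * ((s * y k₀)⁻¹ * 1)) else
        if k = k₁ then (s * y k₁) * 1 else if k = k₀ then (s * y k₀) * 1 else Z k := by
      funext k
      rw [Pi.smul_apply, smul_eq_mul, mul_one, mul_one, mul_one, mul_one, hlast]
      split_ifs with a b c d
      · rw [a]
      · rw [b]
      · rw [c]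
      · rw [d]
      · have : ¬ k.val < 4 := by
          simp only [k₀, k₁, k₂, k₃, Fin.ext_iff] at a b c d
          omega
        rw [show y k = 0 from by_contra fun h => this ((hyiff k).1 h), mul_zero]
        simp [hZdef, this]
    have hfy : Full hF H (s • y) := by
      rw [hlin]
      convert f₃ using 1
      funext k
      have hZ0 : Z k₀ = 1 := by simp [hZdef, k₀]
      have hZ1 : Z k₁ = 1 := by simp [hZdef, k₁]
      have hZ2 : Z k₂ = 1 := by simp [hZdef, k₂]
      have hZ3 : Z k₃ = 1 := by simp [hZdef, k₃]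
      simp only [h01.symm, h02.symm, h03.symm, h12.symm, h13.symm, h23.symm, h01, h02, h03, h12, h13, h23,
        if_false, if_true, hZ0, hZ1, hZ2, hZ3]
      split_ifs <;> rfl
    have hsy : B (s • y) (s • y) = 0 := by
      rw [hweight]
      have : supp (s • y) = Finset.univ.filter fun i : Fin n => i.val < 4 := by
        ext i
        simp only [supp, Finset.mem_filter, Finset.mem_univ, true_and, Pi.smul_apply, smul_eq_mul,
          mul_ne_zero_iff, ne_eq, hs0, not_false_eq_true, true_and]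
        exact hyiff i
      rw [this, hcardZ]
      exact_mod_cast hfour
    have hfy' := hfy.smul hF hsy s⁻¹
    rw [smul_smul, inv_mul_cancel₀ hs0, one_smul] at hfy'
    have hyy : B y y = 0 := by
      rw [ub_smul_left hF, ub_smul_right hF, ← mul_assoc, sig_mul_self hF hq2 hs0, one_mul] at hsy
      exact hsy
    have hx2 := hperm π⁻¹ y hyy hfy'
    have hyx : y ∘ ⇑π⁻¹ = x := by funext i; simp [hy]
    rwa [hyx] at hx2
  -- all isotropic vectors
  refine eq_top_of_all_full hF (by omega) (by omega) ?_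
  intro x
  induction hm : (supp x).card using Nat.strong_induction_on generalizing x with
  | _ m ih =>
    intro hxx
    have hm0 : (m : F) = 0 := by rw [← hm, ← hweight, hxx]
    have heven : Even m := by
      rcases Nat.even_or_odd m with h | ⟨t, rfl⟩
      · exact h
      · refine absurd ?_ (one_ne_zero (α := F))
        push_cast at hm0
        linear_combination hm0 - (t : F) * h2
    rcases (by obtain ⟨t, rfl⟩ := heven; omega : m = 0 ∨ m = 2 ∨ m = 4 ∨ 5 ≤ m) with h | h | h | h
    · subst h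
      have : x = (0 : F) • pr i₀ j₀ 1 := by
        funext i
        rw [zero_smul]
        by_contra hi
        exact Finset.notMem_empty i (Finset.card_eq_zero.1 hm ▸ (by simpa [supp] using hi))
      rw [this]
      exact (hP2 i₀ j₀ hij₀ 1 one_ne_zero).smul hF (pr_iso hF hq2 hij₀ one_ne_zero) 0
    · subst h
      obtain ⟨i, j, hij, hs⟩ := Finset.card_eq_two.1 hm
      have hi : x i ≠ 0 := by
        have : i ∈ supp x := by rw [hs]; simp
        simpa [supp] using this
      have hj : x j ≠ 0 := by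
        have : j ∈ supp x := by rw [hs]; simp
        simpa [supp] using this
      have : x = x i • pr i j (x j / x i) := by
        funext k
        simp only [pr, Pi.smul_apply, Pi.add_apply, Pi.single_apply, smul_eq_mul]
        by_cases hki : k = i
        · subst hki; simp [hij]
        · by_cases hkj : k = j
          · subst hkj; simp [hki, mul_div_cancel₀ _ hi]
          · rw [if_neg hki, if_neg hkj, add_zero, mul_zero]
            by_contra hk
            have : k ∈ supp x := by simpa [supp] using hk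
            rw [hs] at this
            simp [hki, hkj] at this
      rw [this]
      exact (hP2 i j hij _ (div_ne_zero hj hi)).smul hF (pr_iso hF hq2 hij (div_ne_zero hj hi)) _
    · exact hw4 x (hm.trans h)
    · obtain ⟨ω, hω0, hω1⟩ := exists_omega hF hq2
      have hωe := omega_eq hF hq2 hω0 hω1
      set o := (supp x).orderEmbOfFin hm
      set p₀ := o ⟨0, by omega⟩ with hp₀
      set p₁ := o ⟨1, by omega⟩ with hp₁
      set p₂ := o ⟨2, by omega⟩ with hp₂
      set p₃ := o ⟨3, by omega⟩ with hp₃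
      have h01 : p₀ ≠ p₁ := fun e => by simpa using o.injective e
      have h02 : p₀ ≠ p₂ := fun e => by simpa using o.injective e
      have h03 : p₀ ≠ p₃ := fun e => by simpa using o.injective e
      have h12 : p₁ ≠ p₂ := fun e => by simpa using o.injective e
      have h13 : p₁ ≠ p₃ := fun e => by simpa using o.injective e
      have h23 : p₂ ≠ p₃ := fun e => by simpa using o.injective e
      have hmem : ∀ i, x (o i) ≠ 0 := fun i =>
        (Finset.mem_filter.1 ((supp x).orderEmbOfFin_mem hm i)).2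
      set z : Fin n → F := Pi.single p₀ (x p₀) + Pi.single p₁ (x p₁) + Pi.single p₂ (ω * x p₂) +
        Pi.single p₃ (ω ^ 2 * x p₃) with hz
      have hσω : σ ω = ω ^ 2 := by rw [Forms.frobQ_apply, hq2]
      have hω3 := cube_one hF hq2 hω0
      have hB : B z x = 1 := by
        rw [hz, ub_add_left hF, ub_add_left hF, ub_add_left hF, ub_single_left hF, ub_single_left hF,
          ub_single_left hF, ub_single_left hF, map_mul, map_mul, map_pow, hσω]
        have e₀ := sig_mul_self hF hq2 (hmem ⟨0, by omega⟩)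
        have e₁ := sig_mul_self hF hq2 (hmem ⟨1, by omega⟩)
        have e₂ := sig_mul_self hF hq2 (hmem ⟨2, by omega⟩)
        have e₃ := sig_mul_self hF hq2 (hmem ⟨3, by omega⟩)
        rw [← hp₀] at e₀; rw [← hp₁] at e₁; rw [← hp₂] at e₂; rw [← hp₃] at e₃
        linear_combination e₀ + e₁ + ω ^ 2 * e₂ + ω ^ 4 * e₃ + ω * hω3 + hωe
      have hzsupp : supp z = {p₀, p₁, p₂, p₃} := by
        ext i
        simp only [supp, hz, Finset.mem_filter, Finset.mem_univ, true_and, Pi.add_apply, Pi.single_apply,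
          Finset.mem_insert, Finset.mem_singleton]
        by_cases a : i = p₀
        · subst a; simp [h01, h02, h03, hp₀ ▸ hmem ⟨0, by omega⟩]
        by_cases b : i = p₁
        · subst b; simp [a, h12, h13, hp₁ ▸ hmem ⟨1, by omega⟩]
        by_cases c : i = p₂
        · subst c; simp [a, b, h23, hω0, hp₂ ▸ hmem ⟨2, by omega⟩]
        by_cases d : i = p₃
        · subst d; simp [a, b, c, hω0, hp₃ ▸ hmem ⟨3, by omega⟩]
        simp [a, b, c, d]
      have hzc : (supp z).card = 4 := by
        rw [hzsupp]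
        simp [h01, h02, h03, h12, h13, h23]
      have hzz : B z z = 0 := by rw [hweight, hzc]; exact_mod_cast hfour
      have hzfull := hw4 z hzc
      have hxy : act (root hF z 0 1) x = x + z := by
        rw [act_tv hF hzz hone, hB, one_mul, one_smul]
      have hyx : act (root hF z 0 1) (x + z) = x := by
        rw [act_tv hF hzz hone, ub_add_right hF, hB, hzz, one_mul, add_zero, one_smul]
        funext i
        simp only [Pi.add_apply]
        linear_combination z i * h2
      have hyy : B (x + z) (x + z) = 0 := by rw [← hxy, act_ub hF, hxx]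
      have hsub : supp (x + z) ⊆ (supp x).erase p₀ := by
        intro i hi
        simp only [supp, Finset.mem_filter, Finset.mem_univ, true_and, Pi.add_apply] at hi
        refine Finset.mem_erase.2 ⟨fun a => hi ?_, ?_⟩
        · subst a
          rw [hz]
          simp [h01, h02, h03]
          linear_combination x p₀ * h2
        · by_contra hix
          have hxi : x i = 0 := by simpa [supp] using hix
          have : i ∈ supp z := by simpa [supp, hxi] using hi
          rw [hzsupp] at this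
          simp only [Finset.mem_insert, Finset.mem_singleton] at this
          rcases this with rfl | rfl | rfl | rfl <;> exact hmem _ hxi
      have hlt' : (supp (x + z)).card < m := by
        have h1 := Finset.card_le_card hsub
        rw [Finset.card_erase_of_mem ((supp x).orderEmbOfFin_mem hm _), hm] at h1
        omega
      have := (ih _ hlt' (x + z) rfl hyy).conj hF hyy (hzfull 1 hone)
      rwa [hyx] at this

theorem act_mono_single {g : Cfsg.SU n F q} {π : Equiv.Perm (Fin n)} {d : Fin n → F}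
    (hg : ∀ x k, act g x k = d (π.symm k) * x (π.symm k)) (i : Fin n) (c : F) :
    act g (Pi.single i c) = Pi.single (π i) (d i * c) := by
  funext k
  rw [hg]
  by_cases h : k = π i
  · subst h; simp
  · rw [Pi.single_eq_of_ne h, Pi.single_eq_of_ne (fun e => h (by rw [← e, Equiv.apply_symm_apply])), mul_zero]

theorem exists_two_small (hq2 : q = 2) (hn : 4 ≤ n) :
    ∃ a b : Cfsg.SU n F q, Subgroup.closure ({a, b} : Set (Cfsg.SU n F q)) = ⊤ := by
  classical
  have hone := one_trace hF hq2
  have h2 := two_zero hF hq2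
  obtain ⟨ω, hω0, hω1⟩ := exists_omega hF hq2
  have hω3 := cube_one hF hq2 hω0
  have hσω := sig_mul_self hF hq2 hω0
  have hω21 : ω ^ 2 ≠ 1 := fun h => hω1 (by linear_combination -ω * h + hω3)
  have hωω : σ (ω ^ 2) * ω ^ 2 = 1 := sig_mul_self hF hq2 (pow_ne_zero 2 hω0)
  obtain ⟨c, hcu, hcx⟩ := exists_cyc hF (n := n) (by omega)
  have hcs : ∀ (i : ℕ) (hi : i + 1 < n) (r : F),
      act c (Pi.single ⟨i, by omega⟩ r) = Pi.single ⟨i + 1, hi⟩ r := by
    intro i hi r
    have e : ∀ (j : ℕ) (hj : j < n), Pi.single (⟨j, hj⟩ : Fin n) r = r • (u n j : Fin n → F) := fun j hj => by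
      rw [u_eq_single hj, ← Pi.single_smul, smul_eq_mul, mul_one]
    rw [e, e, map_smul, hcu i hi]
  have hcp : ∀ (i j : ℕ) (hi : i + 1 < n) (hj : j + 1 < n) (r : F),
      act c (pr ⟨i, by omega⟩ ⟨j, by omega⟩ r) = pr ⟨i + 1, hi⟩ ⟨j + 1, hj⟩ r := by
    intro i j hi hj r
    rw [pr, map_add, hcs i hi, hcs j hj, pr]
  set Z : Fin n → F := fun i => if i.val < 4 then 1 else 0 with hZdef
  rcases eq_or_ne n 4 with rfl | hn4
  · -- four dimensions
    obtain ⟨D, hD⟩ := exists_mono hF (1 : Equiv.Perm (Fin 4)) (Pi.mulSingle 2 ω * Pi.mulSingle 3 (ω ^ 2))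
      (fun i => by
        fin_cases i <;> simp [Pi.mulSingle_apply, -Forms.frobQ_apply, -map_pow, hσω, hωω])
      (by simp [Fin.prod_univ_four, Pi.mulSingle_apply]; linear_combination hω3)
    have hDp : ∀ (i j : Fin 4) (r : F), act D (pr i j r) =
        Pi.single i ((Pi.mulSingle 2 ω * Pi.mulSingle 3 (ω ^ 2) : Fin 4 → F) i * 1) +
          Pi.single j ((Pi.mulSingle 2 ω * Pi.mulSingle 3 (ω ^ 2) : Fin 4 → F) j * r) := fun i j r => by
      rw [pr, map_add, act_mono_single hF hD, act_mono_single hF hD]; rfl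
    have hiso := pr_iso hF hq2 (show (0 : Fin 4) ≠ 1 by decide) (one_ne_zero (α := F))
    have hDfix : act D (pr 0 1 (1 : F)) = (1 : F) • pr 0 1 1 := by
      rw [hDp, one_smul, pr]; simp [Pi.mulSingle_apply]
    have hD' : ∀ x k, act D x k =
        (Pi.mulSingle 2 ω * Pi.mulSingle 3 (ω ^ 2) : Fin 4 → F) k * x k := fun x k => hD x k
    have hD3 : D ^ 3 = 1 := su_ext fun x => funext fun k => by
      rw [pow_succ, pow_two, act_mul_apply, act_mul_apply, hD', hD', hD', act_one]
      fin_cases k <;> simp [Pi.mulSingle_apply]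
      · linear_combination x 2 * hω3
      · linear_combination x 3 * (ω ^ 3 + 1) * hω3
    set t := root hF (pr (0 : Fin 4) 1 (1 : F)) 0 1
    have hcomm : Commute t D := tv_comm hF D hiso (by rw [map_one, one_mul]) hDfix hone
    have hZiso : B Z Z = 0 := by
      rw [ub_eq_sum hF]; simp [Fin.sum_univ_four, hZdef]
      linear_combination 2 * h2
    have hcZ : act c Z = (1 : F) • Z := funext fun k => by
      rw [one_smul, hcx]
      fin_cases k <;> simp [hZdef]
      linear_combination -h2
    refine ⟨t * D, root hF Z 0 1 * c, ?_⟩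
    set H := Subgroup.closure ({t * D, root hF Z 0 1 * c} : Set (Cfsg.SU 4 F q)) with hH
    have haH : t * D ∈ H := Subgroup.subset_closure (Or.inl rfl)
    have hbH : root hF Z 0 1 * c ∈ H := Subgroup.subset_closure (Or.inr rfl)
    have ht2 : t * t = 1 := by rw [tv_mul hF hiso hone hone, show (1 : F) + 1 = 0 by linear_combination h2, tv_zero hF hiso]
    have htH : t ∈ H := by
      have h := H.pow_mem haH 3
      rwa [hcomm.mul_pow, hD3, mul_one, pow_succ, pow_two, ht2, one_mul] at h
    have hDH : D ∈ H := by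
      have h := H.mul_mem (H.inv_mem htH) haH
      rwa [inv_mul_cancel_left] at h
    have h01 : Full hF H (pr 0 1 (1 : F)) := full_of_mem hF hq2 hiso htH
    have hnext : ∀ i : ℕ, (hi : i + 2 < 4) → Full hF H (pr ⟨i, by omega⟩ ⟨i + 1, by omega⟩ (1 : F)) →
        Full hF H (pr ⟨i + 1, by omega⟩ ⟨i + 2, hi⟩ (1 : F)) := by
      intro i hi h
      have hne : (⟨i, by omega⟩ : Fin 4) ≠ ⟨i + 1, by omega⟩ := by simp
      have h' := h.conj hF (pr_iso hF hq2 hne one_ne_zero) hbH
      rw [act_mul_apply, hcp i (i + 1) (by omega) hi 1] at h'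
      rwa [tv_fix hF hZiso hone] at h'
      rw [← ub_symm hF, ub_pr_left hF]
      simp only [hZdef, if_pos (show i + 1 < 4 by omega), if_pos hi, show i + 1 + 1 = i + 2 by rfl]
      rw [map_one, mul_one, show (1 : F) + 1 = 0 by linear_combination h2, map_zero]
    have h12 : Full hF H (pr 1 2 (1 : F)) := hnext 0 (by omega) h01
    have h23 : Full hF H (pr 2 3 (1 : F)) := hnext 1 (by omega) h12
    have hcH : c ∈ H := by
      have hc : c = t * root hF (pr 1 2 (1 : F)) 0 1 * root hF (pr 2 3 (1 : F)) 0 1 := su_ext fun x => funext fun k => by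
        rw [act_mul_apply, act_mul_apply, hcx, act_pr hF hq2 (by decide) one_ne_zero,
          act_pr hF hq2 (by decide) one_ne_zero, act_pr hF hq2 (by decide) one_ne_zero]
        fin_cases k <;> simp [map_one]
        linear_combination (-x 3) * h2
      rw [hc]
      exact H.mul_mem (H.mul_mem htH (h12 1 hone)) (h23 1 hone)
    have hZH : Full hF H Z := full_of_mem hF hq2 hZiso (by
      have h := H.mul_mem hbH (H.inv_mem hcH)
      rwa [mul_inv_cancel_right] at h)
    have h12ω : Full hF H (pr 1 2 ω) := by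
      have h := h12.conj hF (pr_iso hF hq2 (by decide) one_ne_zero) hDH
      rw [hDp] at h
      simpa [Pi.mulSingle_apply, pr] using h
    exact eq_top_of_pairs hF hq2 le_rfl (show (1 : Fin 4) ≠ 2 by decide)
      (allPh_of_two hF hq2 (by decide) one_ne_zero hω0 hω1.symm h12 h12ω)
      (fun k hk => ⟨1, one_ne_zero, by
        rcases (by omega : k = 0 ∨ k = 1 ∨ k = 2) with rfl | rfl | rfl
        · exact h01
        · exact h12
        · exact h23⟩) hZH
  -- five or more dimensions
  set k₀ : Fin n := ⟨0, by omega⟩ with hk₀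
  set k₁ : Fin n := ⟨1, by omega⟩ with hk₁
  set k₂ : Fin n := ⟨2, by omega⟩ with hk₂
  set k₃ : Fin n := ⟨3, by omega⟩ with hk₃
  set k₄ : Fin n := ⟨4, by omega⟩ with hk₄
  set π : Equiv.Perm (Fin n) := Equiv.swap k₀ k₁ * Equiv.swap k₁ k₂ with hπ
  set d : Fin n → F := Pi.mulSingle k₀ ω * Pi.mulSingle k₁ ω * Pi.mulSingle k₂ ω * Pi.mulSingle k₃ ω *
    Pi.mulSingle k₄ (ω ^ 2) with hd
  have hsig : ∀ i : Fin n, i = k₀ ∨ i = k₁ ∨ i = k₂ ∨ i = k₃ ∨ i = k₄ ∨ 5 ≤ i.val := by
    intro i; simp only [k₀, k₁, k₂, k₃, k₄, Fin.ext_iff]; omega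
  obtain ⟨h, hh⟩ := exists_mono hF π d
    (fun i => by
      have hd' : d i = 1 ∨ d i = ω ∨ d i = ω ^ 2 := by
        rcases hsig i with rfl | rfl | rfl | rfl | rfl | h5 <;>
          simp [hd, Pi.mulSingle_apply, k₀, k₁, k₂, k₃, k₄, Fin.ext_iff]
        simp [show i.val ≠ 0 by omega, show i.val ≠ 1 by omega, show i.val ≠ 2 by omega,
          show i.val ≠ 3 by omega, show i.val ≠ 4 by omega]
      rcases hd' with h | h | h <;> rw [h]
      · rw [map_one, mul_one]
      · exact hσω
      · exact hωω)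
    (by
      rw [hπ, map_mul, Equiv.Perm.sign_swap (by simp [k₀, k₁]), Equiv.Perm.sign_swap (by simp [k₁, k₂]),
        neg_one_mul, neg_neg, Units.val_one, Int.cast_one, one_mul, hd]
      simp only [Pi.mul_apply, Finset.prod_mul_distrib, Fintype.prod_pi_mulSingle']
      linear_combination (ω ^ 3 + 1) * hω3)
  have hs : ∀ (i : Fin n) (r : F), act h (Pi.single i r) = Pi.single (π i) (d i * r) :=
    act_mono_single hF hh
  have hπ0 : π k₀ = k₁ := by simp [hπ, k₀, k₁, k₂, Equiv.swap_apply_def]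
  have hπ1 : π k₁ = k₂ := by simp [hπ, k₀, k₁, k₂, Equiv.swap_apply_def]
  have hπ2 : π k₂ = k₀ := by simp [hπ, k₀, k₁, k₂, Equiv.swap_apply_def]
  have hπo : ∀ i : Fin n, 3 ≤ i.val → π i = i := fun i hi => by
    simp [hπ, k₀, k₁, k₂, Equiv.swap_apply_def, Fin.ext_iff, show i.val ≠ 0 by omega,
      show i.val ≠ 1 by omega, show i.val ≠ 2 by omega]
  have hd0 : d k₀ = ω := by simp [hd, k₀, k₁, k₂, k₃, k₄, Pi.mulSingle_apply]
  have hd1 : d k₁ = ω := by simp [hd, k₀, k₁, k₂, k₃, k₄, Pi.mulSingle_apply]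
  have hd2 : d k₂ = ω := by simp [hd, k₀, k₁, k₂, k₃, k₄, Pi.mulSingle_apply]
  have hd3 : d k₃ = ω := by simp [hd, k₀, k₁, k₂, k₃, k₄, Pi.mulSingle_apply]
  have hd4 : d k₄ = ω ^ 2 := by simp [hd, k₀, k₁, k₂, k₃, k₄, Pi.mulSingle_apply]
  have hdo : ∀ i : Fin n, 5 ≤ i.val → d i = 1 := fun i hi => by
    simp [hd, k₀, k₁, k₂, k₃, k₄, Pi.mulSingle_apply, Fin.ext_iff, show i.val ≠ 0 by omega,
      show i.val ≠ 1 by omega, show i.val ≠ 2 by omega, show i.val ≠ 3 by omega, show i.val ≠ 4 by omega]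
  have hh3 : h ^ 3 = 1 := by
    refine su_ext fun x => LinearMap.congr_fun (LinearMap.pi_ext' fun i => LinearMap.ext_ring ?_) x
    simp only [LinearMap.comp_apply, LinearMap.single_apply]
    rw [pow_succ, pow_two, act_mul_apply, act_mul_apply, hs, hs, hs, act_one, Module.End.one_apply]
    rcases hsig i with rfl | rfl | rfl | rfl | rfl | h5
    · rw [hπ0, hπ1, hπ2, hd0, hd1, hd2]; congr 1; linear_combination hω3
    · rw [hπ1, hπ2, hπ0, hd0, hd1, hd2]; congr 1; linear_combination hω3
    · rw [hπ2, hπ0, hπ1, hd0, hd1, hd2]; congr 1; linear_combination hω3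
    · rw [hπo k₃ le_rfl, hπo k₃ le_rfl, hπo k₃ le_rfl, hd3]; congr 1; linear_combination hω3
    · rw [hπo k₄ (show 3 ≤ 4 by omega), hπo k₄ (show 3 ≤ 4 by omega), hπo k₄ (show 3 ≤ 4 by omega), hd4]
      congr 1; linear_combination (ω ^ 3 + 1) * hω3
    · rw [hπo i (by omega), hπo i (by omega), hπo i (by omega), hdo i h5, one_mul, one_mul, one_mul]
  have hZsum : Z = Pi.single k₀ (1 : F) + Pi.single k₁ 1 + Pi.single k₂ 1 + Pi.single k₃ 1 := by
    funext i
    rcases hsig i with rfl | rfl | rfl | rfl | rfl | h5 <;>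
      simp [hZdef, k₀, k₁, k₂, k₃, k₄, Pi.single_apply, Fin.ext_iff]
    simp [show i.val ≠ 0 by omega, show i.val ≠ 1 by omega, show i.val ≠ 2 by omega, show i.val ≠ 3 by omega,
      show ¬ i.val < 4 by omega]
  have hZiso : B Z Z = 0 := by
    rw [hZsum]
    simp only [ub_add_left hF, ub_single_left hF, Pi.add_apply, map_one, one_mul]
    simp [k₀, k₁, k₂, k₃, Pi.single_apply]
    linear_combination 2 * h2
  have hhZ : act h Z = ω • Z := by
    rw [hZsum, map_add, map_add, map_add, hs, hs, hs, hs, hπ0, hπ1, hπ2, hπo k₃ le_rfl, hd0, hd1, hd2, hd3,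
      smul_add, smul_add, smul_add, ← Pi.single_smul, ← Pi.single_smul, ← Pi.single_smul, ← Pi.single_smul,
      smul_eq_mul]
    abel
  set t := root hF Z 0 1
  have hcomm : Commute t h := tv_comm hF h hZiso (by rw [mul_comm, hσω]) hhZ hone
  refine ⟨t * h, c, ?_⟩
  set H := Subgroup.closure ({t * h, c} : Set (Cfsg.SU n F q)) with hH
  have haH : t * h ∈ H := Subgroup.subset_closure (Or.inl rfl)
  have hcH : c ∈ H := Subgroup.subset_closure (Or.inr rfl)
  have ht2 : t * t = 1 := by
    rw [tv_mul hF hZiso hone hone, show (1 : F) + 1 = 0 by linear_combination h2, tv_zero hF hZiso]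
  have htH : t ∈ H := by
    have h' := H.pow_mem haH 3
    rwa [hcomm.mul_pow, hh3, mul_one, pow_succ, pow_two, ht2, one_mul] at h'
  have hhH : h ∈ H := by
    have h' := H.mul_mem (H.inv_mem htH) haH
    rwa [inv_mul_cancel_left] at h'
  have hZH : Full hF H Z := full_of_mem hF hq2 hZiso htH
  -- from `Z` and its translate
  have hcZ : act c Z = Pi.single k₁ (1 : F) + Pi.single k₂ 1 + Pi.single k₃ 1 + Pi.single k₄ 1 := by
    rw [hZsum, map_add, map_add, map_add, hcs 0 (by omega), hcs 1 (by omega), hcs 2 (by omega),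
      hcs 3 (by omega)]
  have h04 : Full hF H (pr k₀ k₄ (1 : F)) := by
    have h1 := (hZH.conj hF hZiso hcH).conj hF (by rw [act_ub hF, hZiso]) htH
    convert h1 using 1
    funext i
    rw [act_tv hF hZiso hone, hcZ, hZsum]
    simp only [pr, ub_add_left hF, ub_single_left hF, Pi.add_apply, Pi.smul_apply, smul_eq_mul, map_one,
      one_mul]
    simp [k₀, k₁, k₂, k₃, k₄, Pi.single_apply, Fin.ext_iff]
    rcases hsig i with rfl | rfl | rfl | rfl | rfl | h5
    all_goals (try simp [k₀, k₁, k₂, k₃, k₄])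
    all_goals first
      | linear_combination h2
      | linear_combination (-2 : F) * h2
      | simp [show i.val ≠ 0 by omega, show i.val ≠ 1 by omega, show i.val ≠ 2 by omega,
          show i.val ≠ 3 by omega, show i.val ≠ 4 by omega]
  have hne04 : k₀ ≠ k₄ := by simp [k₀, k₄]
  have hne14 : k₁ ≠ k₄ := by simp [k₁, k₄]
  have hne01 : k₀ ≠ k₁ := by simp [k₀, k₁]
  have h14 : Full hF H (pr k₁ k₄ ω) := by
    have h1 := h04.conj hF (pr_iso hF hq2 hne04 one_ne_zero) hhH
    have h1' := h1.smul hF (by rw [act_ub hF, pr_iso hF hq2 hne04 one_ne_zero]) (ω ^ 2)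
    convert h1' using 1
    rw [pr, pr, map_add, hs, hs, hπ0, hπo k₄ (show 3 ≤ 4 by omega), hd0, hd4, smul_add, ← Pi.single_smul,
      ← Pi.single_smul, smul_eq_mul, smul_eq_mul, show ω ^ 2 * (ω * 1) = 1 by linear_combination hω3,
      show ω ^ 2 * (ω ^ 2 * 1) = ω by linear_combination ω * hω3]
  have h01 : Full hF H (pr k₀ k₁ (ω ^ 2)) := by
    have h1 := pr_trans hF hq2 hne04 hne14.symm hne01 one_ne_zero (inv_ne_zero hω0) h04
      (pr_symm hF hq2 hne14 hω0 h14)
    rwa [one_mul, inv_eq_of_mul_eq_one_right (show ω * ω ^ 2 = 1 by linear_combination hω3)] at h1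
  have hadj : ∀ k (hk : k + 1 < n), Full hF H (pr ⟨k, by omega⟩ ⟨k + 1, hk⟩ (ω ^ 2)) := by
    intro k
    induction k with
    | zero => exact fun _ => h01
    | succ k ih =>
      intro hk
      have h1 := (ih (by omega)).conj hF (pr_iso hF hq2 (Fin.ne_of_val_ne (by simp)) (pow_ne_zero 2 hω0)) hcH
      rwa [hcp k (k + 1) (by omega) hk] at h1
  have hw := pow_ne_zero 2 hω0
  have h02 : Full hF H (pr k₀ k₂ (ω ^ 2 * ω ^ 2)) :=
    pr_trans hF hq2 hne01 (by simp [k₁, k₂]) (by simp [k₀, k₂]) hw hw (hadj 0 (by omega)) (hadj 1 (by omega))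
  have h03 : Full hF H (pr k₀ k₃ (ω ^ 2 * ω ^ 2 * ω ^ 2)) :=
    pr_trans hF hq2 (by simp [k₀, k₂]) (by simp [k₂, k₃]) (by simp [k₀, k₃]) (mul_ne_zero hw hw) hw h02
      (hadj 2 (by omega))
  have h04' : Full hF H (pr k₀ k₄ (ω ^ 2 * ω ^ 2 * ω ^ 2 * ω ^ 2)) :=
    pr_trans hF hq2 (by simp [k₀, k₃]) (by simp [k₃, k₄]) hne04 (mul_ne_zero (mul_ne_zero hw hw) hw) hw h03
      (hadj 3 (by omega))
  rw [show ω ^ 2 * ω ^ 2 * ω ^ 2 * ω ^ 2 = ω ^ 2 by
    linear_combination (ω ^ 5 + ω ^ 2) * hω3] at h04'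
  exact eq_top_of_pairs hF hq2 hn hne04 (allPh_of_two hF hq2 hne04 one_ne_zero hw (Ne.symm hω21) h04 h04')
    (fun k hk => ⟨_, hw, hadj k hk⟩) hZH

end Cfsg.Agent.Screen.TwoGen.Unitary
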