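import Cfsg.Agent.Forms.SUOddRegGen

/-!
# Monomial elements and transvections of `SU_n(q)`
-/

set_option autoImplicit false
set_option linter.unusedSimpArgs false
set_option linter.unusedSectionVars false

namespace Cfsg.Agent.Screen.TwoGen.Unitary

open Matrix Cfsg.Agent.KnownA Cfsg.Agent.Forms.SUOdd
open Cfsg.Agent.Forms (frobQ)

variable {F : Type*} [Field F] [Fintype F] {n q : ℕ} (hF : Fintype.card F = q ^ 2)
include hF

local notation "B" => ub hF
local notation "σ" => frobQ hF

theorem ub_eq_sum (x y : Fin n → F) : B x y = ∑ i, σ (x i) * y i := by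
  show Forms.hermB n hF x y = _
  rw [Forms.hermB_apply]
  exact Finset.sum_congr rfl fun i _ => mul_comm _ _

theorem ub_single_left (i : Fin n) (c : F) (x : Fin n → F) : B (Pi.single i c) x = σ c * x i := by
  rw [ub_eq_sum hF, Finset.sum_eq_single i]
  · simp
  · intro j _ hj; rw [Pi.single_eq_of_ne hj, map_zero, zero_mul]
  · intro h; exact absurd (Finset.mem_univ i) h

theorem ub_single_right (x : Fin n → F) (i : Fin n) (c : F) : B x (Pi.single i c) = σ (x i) * c := by
  rw [← ub_symm hF, ub_single_left hF, map_mul, sig_sig hF, mul_comm]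

omit hF in
/-- The standard basis vector with a natural number as its index. -/
def u (n : ℕ) (i : ℕ) : Fin n → F := fun j => if j.val = i then 1 else 0

omit hF in
theorem u_eq_single {i : ℕ} (h : i < n) : (u n i : Fin n → F) = Pi.single ⟨i, h⟩ 1 := by
  funext j
  simp [u, Pi.single_apply, Fin.ext_iff]

theorem ub_u_left {i : ℕ} (h : i < n) (x : Fin n → F) : B (u n i) x = x ⟨i, h⟩ := by
  rw [u_eq_single h, ub_single_left hF, map_one, one_mul]

theorem ub_u_u {i j : ℕ} (hi : i < n) : B (u n i) (u n j) = if i = j then 1 else 0 := by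
  rw [ub_u_left hF hi]
  rfl

theorem ub_u_self {i : ℕ} (hi : i < n) : B (u n i) (u n i) = 1 := by rw [ub_u_u hF hi, if_pos rfl]

theorem ub_u_ne {i j : ℕ} (hi : i < n) (h : i ≠ j) : B (u n i) (u n j) = 0 := by
  rw [ub_u_u hF hi, if_neg h]

/-- A monomial map of determinant `1` with coefficients of norm `1` is in `SU`. -/
theorem exists_mono (π : Equiv.Perm (Fin n)) (d : Fin n → F) (hd : ∀ i, σ (d i) * d i = 1)
    (hdet : ((Equiv.Perm.sign π : ℤˣ) : F) * ∏ i, d i = 1) :
    ∃ g : Cfsg.SU n F q, ∀ x k, act g x k = d (π.symm k) * x (π.symm k) := by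
  let f : (Fin n → F) →ₗ[F] (Fin n → F) := Matrix.toLin' ((Matrix.diagonal d).submatrix π.symm id)
  have hf : ∀ x k, f x k = d (π.symm k) * x (π.symm k) := by
    intro x k
    show (((Matrix.diagonal d).submatrix π.symm id) *ᵥ x) k = _
    simp [Matrix.mulVec, dotProduct, Matrix.diagonal_apply]
  have hB : ∀ x y, B (f x) (f y) = B x y := by
    intro x y
    rw [ub_eq_sum hF, ub_eq_sum hF]
    simp only [hf, map_mul]
    rw [Equiv.sum_comp π.symm (fun i => σ (d i) * σ (x i) * (d i * y i))]
    exact Finset.sum_congr rfl fun i _ => by linear_combination (σ (x i) * y i) * hd i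
  obtain ⟨g, hg⟩ := exists_su_of_linearMap hF f hB (by
    rw [LinearMap.det_toLin', Matrix.det_permute, Matrix.det_diagonal, Equiv.Perm.sign_symm]
    exact hdet)
  exact ⟨g, fun x k => by rw [hg, hf]⟩

/-- The monomial `n`-cycle. -/
theorem exists_cyc (hn : 1 ≤ n) : ∃ b : Cfsg.SU n F q,
    (∀ i, i + 1 < n → act b (u n i) = u n (i + 1)) ∧
      ∀ x (k : Fin n), act b x k = (if k.val = 0 then (-1 : F) ^ (n - 1) else 1) *
        x ⟨(k.val + (n - 1)) % n, Nat.mod_lt _ (by omega)⟩ := by
  obtain ⟨m, rfl⟩ : ∃ m, n = m + 1 := ⟨n - 1, by omega⟩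
  simp only [Nat.add_sub_cancel]
  obtain ⟨g, hg⟩ := exists_mono hF (finRotate (m + 1)) (Pi.mulSingle (Fin.last m) ((-1 : F) ^ m))
    (fun i => by
      rcases eq_or_ne i (Fin.last m) with rfl | hi
      · rw [Pi.mulSingle_eq_same, map_pow, map_neg, map_one, ← mul_pow, neg_one_mul, neg_neg, one_pow]
      · rw [Pi.mulSingle_eq_of_ne hi, map_one, mul_one])
    (by
      rw [Fintype.prod_pi_mulSingle', sign_finRotate]
      push_cast
      rw [← mul_pow, neg_one_mul, neg_neg, one_pow])
  have hsym : ∀ k : Fin (m + 1),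
      ((finRotate (m + 1)).symm k) = ⟨(k.val + m) % (m + 1), Nat.mod_lt _ (by omega)⟩ := by
    intro k
    rw [Equiv.symm_apply_eq]
    apply Fin.ext
    rw [finRotate_succ_apply, Fin.val_add, Fin.val_one', Nat.add_mod_mod, Nat.mod_add_mod,
      Nat.add_assoc, Nat.add_mod_right, Nat.mod_eq_of_lt k.isLt]
  have hsel : ∀ k : Fin (m + 1), (finRotate (m + 1)).symm k = Fin.last m ↔ k.val = 0 := by
    intro k
    rw [Equiv.symm_apply_eq, finRotate_last, Fin.ext_iff, Fin.val_zero]
  refine ⟨g, fun i hi => funext fun k => ?_, fun x k => ?_⟩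
  · rw [hg, Pi.mulSingle_apply]
    by_cases hk : k.val = 0
    · rw [if_pos ((hsel k).2 hk)]
      have h1 : ((finRotate (m + 1)).symm k).val = m := by rw [(hsel k).2 hk, Fin.val_last]
      simp only [u, h1]
      rw [if_neg (show ¬ m = i by omega), mul_zero, if_neg (show ¬ k.val = i + 1 by omega)]
    · rw [if_neg (fun h => hk ((hsel k).1 h)), one_mul, hsym]
      have h1 : (k.val + m) % (m + 1) = k.val - 1 := by
        have := k.isLt
        rw [show k.val + m = k.val - 1 + (m + 1) by omega, Nat.add_mod_right, Nat.mod_eq_of_lt (by omega)]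
      simp only [u, h1]
      by_cases h2 : k.val = i + 1
      · rw [if_pos h2, if_pos (by omega)]
      · rw [if_neg h2, if_neg (by omega)]
  · rw [hg, Pi.mulSingle_apply, hsym]
    congr 1
    by_cases hk : k.val = 0
    · rw [if_pos hk, if_pos (by rw [← hsym]; exact (hsel k).2 hk)]
    · rw [if_neg hk, if_neg (by rw [← hsym]; exact fun h => hk ((hsel k).1 h))]

theorem tv_mul {e : Fin n → F} (he : B e e = 0) {m m' : F} (hm : m + σ m = 0) (hm' : m' + σ m' = 0) :
    root hF e 0 m * root hF e 0 m' = root hF e 0 (m + m') := by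
  rw [root_mul hF he (ub_zero_right hF e) (ub_zero_right hF e) (trace_cond hF hm) (trace_cond hF hm'),
    add_zero, ub_zero_left, sub_zero]

theorem tv_zero {e : Fin n → F} (he : B e e = 0) : root hF e 0 (0 : F) = 1 :=
  su_ext fun x => by
    rw [act_tv hF he (by rw [map_zero, add_zero]), act_one, zero_mul, zero_smul, add_zero]
    rfl

theorem tv_pow {e : Fin n → F} (he : B e e = 0) {m : F} (hm : m + σ m = 0) (k : ℕ) :
    root hF e 0 m ^ k = root hF e 0 ((k : F) * m) := by
  induction k with
  | zero => rw [pow_zero, Nat.cast_zero, zero_mul, tv_zero hF he]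
  | succ k ih =>
    have hkm : (k : F) * m + σ ((k : F) * m) = 0 := by
      rw [map_mul, map_natCast]
      linear_combination (k : F) * hm
    rw [pow_succ, ih, tv_mul hF he hkm hm]
    congr 1
    push_cast
    ring

/-- An element scaling `e` by a scalar of norm `1` commutes with the transvections at `e`. -/
theorem tv_comm (g : Cfsg.SU n F q) {e : Fin n → F} {t : F} (he : B e e = 0) (ht : t * σ t = 1)
    (hge : act g e = t • e) {m : F} (hm : m + σ m = 0) : Commute (root hF e 0 m) g := by
  have h := root_conj hF g he he (ub_zero_right hF e) (trace_cond hF hm) hge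
  rw [map_zero, smul_zero, ht, mul_one, mul_inv_eq_iff_eq_mul] at h
  exact h.symm

/-- A transvection fixes what is orthogonal to its centre. -/
theorem tv_fix {e x : Fin n → F} (he : B e e = 0) {m : F} (hm : m + σ m = 0) (h : B e x = 0) :
    act (root hF e 0 m) x = x := by
  rw [act_tv hF he hm, h, mul_zero, zero_smul, add_zero]

/-- All isotropic points give full transvection groups in `H`: the closure is everything. -/
theorem eq_top_of_all_full (hn : 3 ≤ n) (h32 : ¬ (n = 3 ∧ q = 2)) {H : Subgroup (Cfsg.SU n F q)}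
    (hall : ∀ e : Fin n → F, B e e = 0 → Full hF H e) : H = ⊤ := by
  let N : Subgroup (Cfsg.SU n F q) :=
    Subgroup.closure {x | ∃ e m, B e e = 0 ∧ m + σ m = 0 ∧ x = root hF e 0 m}
  have hNH : N ≤ H := by
    rw [Subgroup.closure_le]
    rintro x ⟨e, m, he, hm, rfl⟩
    exact hall e he m hm
  haveI : N.Normal := by
    constructor
    intro x hx g
    induction hx using Subgroup.closure_induction with
    | mem x hx =>
      obtain ⟨e, m, he, hm, rfl⟩ := hx
      have hge : B (act g e) (act g e) = 0 := by rw [act_ub hF, he]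
      rw [root_conj hF g he hge (ub_zero_right hF e) (trace_cond hF hm) (one_smul F (act g e)).symm,
        map_zero, smul_zero, map_one, mul_one, mul_one]
      exact Subgroup.subset_closure ⟨act g e, m, hge, hm, rfl⟩
    | one => simp [N.one_mem]
    | mul x y _ _ hx hy =>
      have := N.mul_mem hx hy
      rwa [show g * x * g⁻¹ * (g * y * g⁻¹) = g * (x * y) * g⁻¹ by group] at this
    | inv x _ hx =>
      have := N.inv_mem hx
      rwa [show (g * x * g⁻¹)⁻¹ = g * x⁻¹ * g⁻¹ by group] at this
  have hN : N = ⊤ := eq_top_of_trv_mem hF hn h32 N fun e a he =>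
    Subgroup.subset_closure ⟨e, kap hF a, he, kap_trace hF a, rfl⟩
  exact eq_top_iff.2 (hN ▸ hNH)

end Cfsg.Agent.Screen.TwoGen.Unitary
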